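import Mathlib
import Cfsg.Agent.Lib.Unitary.Order

/-!
Transitivity of the special unitary group on isotropic vectors, and the shape of unitary transvections.
-/

set_option autoImplicit false
open scoped Matrix

namespace CfsgLib.Unitary.Isotropic

open CfsgLib.Unitary.FieldNorm CfsgLib.Unitary.Basic CfsgLib.Unitary.Order

variable {F : Type*} [Field F] [Fintype F] {q n : ℕ}

theorem exists_norm (hF : Fintype.card F = q ^ 2) {c : F} (hc : c ≠ 0) (hfix : c ^ q = c) : ∃ x : F, x ^ (q + 1) = c := by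
  by_contra h
  simp only [not_exists] at h
  haveI : IsEmpty {x : F // x ^ (q + 1) = c} := ⟨fun x => h x.1 x.2⟩
  have := card_norm_fiber hF hc hfix
  rw [Nat.card_of_isEmpty] at this
  omega

theorem exists_trace_one (hF : Fintype.card F = q ^ 2) : ∃ a : F, a + a ^ q = 1 := by
  classical
  have h2 := two_le_q hF
  obtain ⟨y, hy⟩ : ∃ y : F, y + y ^ q ≠ 0 := by
    by_contra h
    simp only [not_exists, not_not] at h
    let P : Polynomial F := Polynomial.X ^ q + Polynomial.X
    have hd : P.natDegree = q := by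
      rw [Polynomial.natDegree_add_eq_left_of_natDegree_lt (by simp; omega), Polynomial.natDegree_X_pow]
    have hP : P ≠ 0 := fun h0 => by rw [h0] at hd; simp at hd; omega
    have hall : (Finset.univ : Finset F) ⊆ P.roots.toFinset := fun x _ => by
      rw [Multiset.mem_toFinset, Polynomial.mem_roots hP]
      simp [P, add_comm (x ^ q), h x]
    have := (Finset.card_le_card hall).trans ((Multiset.toFinset_card_le _).trans P.card_roots')
    rw [Finset.card_univ, hF, hd] at this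
    nlinarith
  refine ⟨y * (y + y ^ q)⁻¹, ?_⟩
  have : (y + y ^ q) ^ q = y + y ^ q := by rw [add_pow_q hF, pow_q_q hF, add_comm]
  rw [mul_pow, inv_pow, this, ← add_mul, mul_inv_cancel₀ hy]

theorem vec_eq_zero (hF : Fintype.card F = q ^ 2) {u : Fin n → F} (h : ∀ x, Cfsg.hermForm n F q x u = 0) : u = 0 :=
  funext fun i => by
    have := h (Pi.single i 1)
    rw [H_single_left] at this
    exact eq_zero_of_pow_eq_zero this

/-- An isotropic vector is moved to a standard one. -/
theorem to_std (hF : Fintype.card F = q ^ 2) (hn : 3 ≤ n) {u : Fin n → F} (hu : u ≠ 0)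
    (hiso : Cfsg.hermForm n F q u u = 0) {ζ : F} (hζ : ζ ^ (q + 1) = -1) :
    ∃ g : Cfsg.GU n F q, g.1.1.det = 1 ∧
      g.1.1 *ᵥ u = Pi.single (⟨0, by omega⟩ : Fin n) 1 + ζ • Pi.single (⟨1, by omega⟩ : Fin n) 1 := by
  classical
  have hq0 := q_ne_zero hF
  have hζ0 : ζ ≠ 0 := fun h => by rw [h, zero_pow (by omega)] at hζ; simp at hζ
  obtain ⟨x, hx⟩ : ∃ x, Cfsg.hermForm n F q x u ≠ 0 := by
    by_contra h; simp only [not_exists, not_not] at h; exact hu (vec_eq_zero hF h)
  set v := (Cfsg.hermForm n F q x u)⁻¹ • x with hv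
  have hvu : Cfsg.hermForm n F q v u = 1 := by rw [hv, H_smul_left, inv_mul_cancel₀ hx]
  have huv : Cfsg.hermForm n F q u v = 1 := by rw [← H_conj hF, hvu, one_pow]
  obtain ⟨t, ht⟩ := exists_trace_one hF
  -- the coefficient making the first vector of norm one
  set a := (1 - Cfsg.hermForm n F q v v) * t with ha
  have hvv : (Cfsg.hermForm n F q v v) ^ q = Cfsg.hermForm n F q v v := H_self_fixed hF v
  have haq : a + a ^ q = 1 - Cfsg.hermForm n F q v v := by
    rw [ha, mul_pow, sub_pow_q hF, one_pow, hvv, ← mul_add, ht, mul_one]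
  set e1 := a • u + v with he1
  set e2 := e1 - u with he2
  have h11 : Cfsg.hermForm n F q e1 e1 = 1 := by
    simp only [he1, H_add_left, H_add_right hF, H_smul_left, H_smul_right, hiso, huv, hvu]
    linear_combination haq
  have h1u : Cfsg.hermForm n F q e1 u = 1 := by
    simp only [he1, H_add_left, H_smul_left, hiso, hvu]; ring
  have hu1 : Cfsg.hermForm n F q u e1 = 1 := by rw [← H_conj hF, h1u, one_pow]
  have h12 : Cfsg.hermForm n F q e2 e1 = 0 := by rw [he2, H_sub_left, h11, hu1, sub_self]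
  have h21 : Cfsg.hermForm n F q e1 e2 = 0 := by rw [← H_conj hF, h12, zero_pow hq0]
  have h22 : Cfsg.hermForm n F q e2 e2 = -1 := by
    rw [he2, H_sub_right hF, H_sub_left, H_sub_left, h11, hu1, h1u, hiso]; ring
  -- e2 = -ζ e2'
  set f2 := (-ζ⁻¹) • e2 with hf2
  have hf22 : Cfsg.hermForm n F q f2 f2 = 1 := by
    rw [hf2, H_smul_left, H_smul_right, h22, neg_pow_q hF, inv_pow]
    have : ζ * ζ ^ q = -1 := by rw [← pow_succ', hζ]
    have hzq : ζ ^ q ≠ 0 := pow_ne_zero _ hζ0
    field_simp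
    linear_combination -this
  have hs0 : Cfsg.hermForm n F q (Pi.single (⟨0, by omega⟩ : Fin n) 1) (Pi.single (⟨0, by omega⟩ : Fin n) 1) = 1 := by
    rw [H_single_left, Pi.single_eq_same, one_pow]
  obtain ⟨g1, -, hg1⟩ := trans_norm_one (n := n) hF (j := 0) (u := e1) (v := Pi.single (⟨0, by omega⟩ : Fin n) 1)
    (fun i hi => absurd hi (Nat.not_lt_zero _)) (fun i hi => absurd hi (Nat.not_lt_zero _)) h11 hs0
  obtain ⟨g2, hg2f, hg2⟩ := trans_norm_one (n := n) hF (j := 1) (u := g1.1.1 *ᵥ f2)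
    (v := Pi.single (⟨1, by omega⟩ : Fin n) 1)
    (fun i hi => by
      have hi0 : i = ⟨0, by omega⟩ := Fin.ext (by simp only; omega)
      have h := GU_H g1 f2 e1
      rw [hg1, hf2, H_smul_left, h12, mul_zero, H_single_right hq0] at h
      rw [hi0, hf2]; exact h)
    (fun i hi => Pi.single_eq_of_ne (fun h => by rw [h] at hi; simp at hi) _)
    (by rw [GU_H, hf22]) (by rw [H_single_left, Pi.single_eq_same, one_pow])
  have hgu : (g2 * g1).1.1 *ᵥ u = Pi.single (⟨0, by omega⟩ : Fin n) 1 + ζ • Pi.single (⟨1, by omega⟩ : Fin n) 1 := by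
    have hu' : u = e1 + ζ • f2 := by
      rw [hf2, smul_smul, mul_neg, mul_inv_cancel₀ hζ0, neg_one_smul, he2]; abel
    rw [mulVec_mul, hu', Matrix.mulVec_add, Matrix.mulVec_smul, hg1, Matrix.mulVec_add, Matrix.mulVec_smul, hg2,
      hg2f ⟨0, by omega⟩ (by simp)]
  set D := (g2 * g1).1.1.det with hD
  let d : Fin n → F := Pi.mulSingle (⟨2, by omega⟩ : Fin n) D⁻¹
  have hd : ∀ i, d i ^ (q + 1) = 1 := fun i => by
    simp only [d, Pi.mulSingle_apply]
    split_ifs
    · rw [inv_pow, hD, det_norm hF, inv_one]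
    · exact one_pow _
  refine ⟨mkGU hF (Matrix.diagonal d) (diag_preserves hF d hd) * (g2 * g1), ?_, ?_⟩
  · show (Matrix.diagonal d * (g2 * g1).1.1).det = 1
    rw [Matrix.det_mul, Matrix.det_diagonal, Finset.prod_pi_mulSingle', if_pos (Finset.mem_univ _),
      inv_mul_cancel₀ (fun h => by
        have := det_norm hF (g2 * g1)
        rw [← hD, h, zero_pow (by omega)] at this
        exact zero_ne_one this)]
  · rw [mulVec_mul, hgu]
    show Matrix.diagonal d *ᵥ _ = _
    funext i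
    rw [Matrix.mulVec_diagonal]
    by_cases hi : i = ⟨2, by omega⟩
    · subst hi; simp [Fin.ext_iff]
    · simp [d, Pi.mulSingle_eq_of_ne hi]

/-- SU is transitive on isotropic vectors. -/
theorem transitive (hF : Fintype.card F = q ^ 2) (hn : 3 ≤ n) {u v : Fin n → F} (hu : u ≠ 0) (hv : v ≠ 0)
    (hiu : Cfsg.hermForm n F q u u = 0) (hiv : Cfsg.hermForm n F q v v = 0) :
    ∃ g : Cfsg.SU n F q, g.1.1 *ᵥ u = v := by
  obtain ⟨ζ, hζ⟩ := exists_norm hF (c := (-1 : F)) (by simp) (by rw [neg_pow_q hF, one_pow])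
  obtain ⟨a, ha, hau⟩ := to_std hF hn hu hiu hζ
  obtain ⟨b, hb, hbv⟩ := to_std hF hn hv hiv hζ
  refine ⟨⟨⟨(b⁻¹ * a).1.1, ?_⟩, (b⁻¹ * a).2⟩, ?_⟩
  · have h1 : (b⁻¹).1.1.det * b.1.1.det = 1 := by
      rw [← Matrix.det_mul, show (b⁻¹).1.1 * b.1.1 = 1 from congrArg (fun g : Cfsg.GU n F q => g.1.1) (inv_mul_cancel b),
        Matrix.det_one]
    rw [hb, mul_one] at h1
    show ((b⁻¹).1.1 * a.1.1).det = 1
    rw [Matrix.det_mul, h1, ha, one_mul]
  · show (b⁻¹ * a).1.1 *ᵥ u = v
    rw [mulVec_mul, hau, ← hbv, mulVec_inv_cancel]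

/-- The shape of a transvection in the unitary group. -/
theorem shape (hF : Fintype.card F = q ^ 2) (s : Cfsg.SU n F q) (h1 : ((s.1.1 : Matrix (Fin n) (Fin n) F) - 1).rank = 1)
    (h2 : ((s.1.1 : Matrix (Fin n) (Fin n) F) - 1) * (s.1.1 - 1) = 0) :
    ∃ u : Fin n → F, u ≠ 0 ∧ Cfsg.hermForm n F q u u = 0 ∧ ∃ c : F, c ≠ 0 ∧ c ^ q = -c ∧
      s.1.1 = Cfsg.unitaryTransvection n q u c := by
  set N := (s.1.1 : Matrix (Fin n) (Fin n) F) - 1 with hN
  obtain ⟨⟨u, hur⟩, hu0, huspan⟩ := finrank_eq_one_iff'.1 (show Module.finrank F (LinearMap.range N.mulVecLin) = 1 from h1)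
  have hu : u ≠ 0 := fun h => hu0 (Subtype.ext h)
  have hex : ∀ x, ∃ c : F, N *ᵥ x = c • u := fun x => by
    obtain ⟨c, hc⟩ := huspan ⟨N *ᵥ x, ⟨x, rfl⟩⟩
    exact ⟨c, (congrArg Subtype.val hc).symm⟩
  choose f hf using hex
  have hs : ∀ x, s.1.1 *ᵥ x = x + f x • u := fun x => by
    rw [← hf, hN, Matrix.sub_mulVec, Matrix.one_mulVec, add_sub_cancel]
  have hNu : N *ᵥ u = 0 := by
    obtain ⟨x, rfl⟩ := hur
    rw [Matrix.mulVecLin_apply, Matrix.mulVec_mulVec, h2, Matrix.zero_mulVec]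
  have hfu : f u = 0 := by
    rw [hf] at hNu; exact (smul_eq_zero.1 hNu).resolve_right hu
  have key : ∀ x y, f x * Cfsg.hermForm n F q u y + f y ^ q * Cfsg.hermForm n F q x u +
      f x * f y ^ q * Cfsg.hermForm n F q u u = 0 := fun x y => by
    have := SU_H s x y
    simp only [hs, H_add_left, H_add_right hF, H_smul_left, H_smul_right] at this
    linear_combination this
  obtain ⟨x0, hx0⟩ : ∃ x, f x ≠ 0 := by
    by_contra h
    simp only [not_exists, not_not] at h
    have : N = 0 := Matrix.ext_iff_mulVec.2 fun x => by rw [hf, h, zero_smul, Matrix.zero_mulVec]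
    rw [this, Matrix.rank_zero] at h1; omega
  have hiso : Cfsg.hermForm n F q u u = 0 := by
    have := key x0 u
    rw [hfu, zero_pow (q_ne_zero hF)] at this
    simpa [hx0] using this
  obtain ⟨x, hx⟩ : ∃ x, Cfsg.hermForm n F q x u ≠ 0 := by
    by_contra h; simp only [not_exists, not_not] at h; exact hu (vec_eq_zero hF h)
  set v := (Cfsg.hermForm n F q x u)⁻¹ • x with hv
  have hvu : Cfsg.hermForm n F q v u = 1 := by rw [hv, H_smul_left, inv_mul_cancel₀ hx]
  have huv : Cfsg.hermForm n F q u v = 1 := by rw [← H_conj hF, hvu, one_pow]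
  have hfx : ∀ y, f y = -(f v ^ q) * Cfsg.hermForm n F q y u := fun y => by
    have := key y v
    rw [huv, hiso] at this
    linear_combination this
  have hanti : f v ^ q = -f v := by
    have := hfx v
    rw [hvu] at this
    linear_combination this
  refine ⟨u, hu, hiso, f v, fun h => hx0 (by rw [hfx, h, zero_pow (q_ne_zero hF)]; ring), hanti,
    Matrix.ext_iff_mulVec.2 fun y => ?_⟩
  rw [hs, umat_mulVec, hfx y, hanti, neg_neg]

end CfsgLib.Unitary.Isotropic
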