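import Mathlib
import Cfsg.Agent.Lib.Unitary.Isotropic

/-!
Siegel elements of the unitary group.
-/

set_option autoImplicit false
open scoped Matrix

namespace CfsgLib.Unitary.Siegel

open CfsgLib.Unitary.FieldNorm CfsgLib.Unitary.Basic CfsgLib.Unitary.Order CfsgLib.Unitary.Isotropic

variable {F : Type*} [Field F] [Fintype F] {q n : ℕ}

/-- The two columns. -/
def colm (u w : Fin n → F) : Matrix (Fin n) (Fin 2) F := Matrix.of fun i j => ![w i, u i] j
/-- The two functionals. -/
def rowm (q : ℕ) (u w : Fin n → F) (a : F) : Matrix (Fin 2) (Fin n) F :=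
  Matrix.of fun j i => ![u i ^ q, -(w i ^ q) + a * u i ^ q] j

/-- The Siegel matrix. -/
def E (q : ℕ) (u w : Fin n → F) (a : F) : Matrix (Fin n) (Fin n) F := 1 + colm u w * rowm q u w a

theorem E_mulVec (u w : Fin n → F) (a : F) (x : Fin n → F) :
    E q u w a *ᵥ x = x + Cfsg.hermForm n F q x u • w + (a * Cfsg.hermForm n F q x u - Cfsg.hermForm n F q x w) • u := by
  rw [E, Matrix.add_mulVec, Matrix.one_mulVec, ← Matrix.mulVec_mulVec]
  funext i
  simp only [colm, rowm, Matrix.mulVec, dotProduct, Matrix.of_apply, Fin.sum_univ_two, Pi.add_apply, Pi.smul_apply,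
    smul_eq_mul, Matrix.cons_val_zero, Matrix.cons_val_one, Cfsg.hermForm, Finset.mul_sum, Finset.sum_mul,
    ← Finset.sum_sub_distrib, ← Finset.sum_add_distrib, add_assoc]
  congr 1
  exact Finset.sum_congr rfl fun k _ => by ring

theorem E_det (hF : Fintype.card F = q ^ 2) {u w : Fin n → F} (a : F) (hu : Cfsg.hermForm n F q u u = 0)
    (hwu : Cfsg.hermForm n F q w u = 0) : (E q u w a).det = 1 := by
  have huw : Cfsg.hermForm n F q u w = 0 := by rw [← H_conj hF, hwu, zero_pow (q_ne_zero hF)]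
  rw [E, Matrix.det_one_add_mul_comm, Matrix.det_fin_two]
  simp only [Matrix.add_apply, Matrix.one_apply, Matrix.mul_apply, colm, rowm, Matrix.of_apply, Matrix.cons_val_zero,
    Matrix.cons_val_one, Fin.isValue, Fin.zero_eq_one_iff, one_ne_zero, if_false, if_true]
  simp only [Cfsg.hermForm] at hu hwu huw
  simp only [add_mul, neg_mul, Finset.sum_add_distrib, Finset.sum_neg_distrib, mul_assoc, ← Finset.mul_sum, mul_comm (u _ ^ q),
    mul_comm (w _ ^ q), hu, hwu, huw]
  norm_num [hu, hwu, huw]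

/-- The Siegel element. -/
theorem exists_elt (hF : Fintype.card F = q ^ 2) {u w : Fin n → F} {a : F} (hu : Cfsg.hermForm n F q u u = 0)
    (hwu : Cfsg.hermForm n F q w u = 0) (ha : a + a ^ q + Cfsg.hermForm n F q w w = 0) :
    ∃ g : Cfsg.SU n F q, g.1.1 = E q u w a := by
  refine ⟨⟨⟨E q u w a, E_det hF a hu hwu⟩, fun x y => ?_⟩, rfl⟩
  have huw : Cfsg.hermForm n F q u w = 0 := by rw [← H_conj hF, hwu, zero_pow (q_ne_zero hF)]
  show Cfsg.hermForm n F q (E q u w a *ᵥ x) (E q u w a *ᵥ y) = _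
  simp only [E_mulVec, H_add_left, H_add_right hF, H_smul_left, H_smul_right, sub_pow_q hF, mul_pow, H_conj hF, hu, hwu, huw]
  linear_combination (Cfsg.hermForm n F q x u * Cfsg.hermForm n F q u y) * ha

theorem comm_rel (hF : Fintype.card F = q ^ 2) {u w z : Fin n → F} (a b : F) (hu : Cfsg.hermForm n F q u u = 0)
    (hwu : Cfsg.hermForm n F q w u = 0) (hzu : Cfsg.hermForm n F q z u = 0) :
    E q u w a * E q u z b =
      Cfsg.unitaryTransvection n q u (Cfsg.hermForm n F q w z - Cfsg.hermForm n F q z w) * (E q u z b * E q u w a) := by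
  have huw : Cfsg.hermForm n F q u w = 0 := by rw [← H_conj hF, hwu, zero_pow (q_ne_zero hF)]
  have huz : Cfsg.hermForm n F q u z = 0 := by rw [← H_conj hF, hzu, zero_pow (q_ne_zero hF)]
  refine Matrix.ext_iff_mulVec.2 fun x => ?_
  simp only [← Matrix.mulVec_mulVec, umat_mulVec, E_mulVec, H_add_left, H_smul_left, hu, hwu, hzu, huw, huz]
  module

end CfsgLib.Unitary.Siegel
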