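import Mathlib
import Cfsg.Agent.Lib.Unitary.Siegel

/-!
SU_n is generated by unitary transvections (n ≥ 3, not SU_3(2)).
-/

set_option autoImplicit false
open scoped Matrix

namespace CfsgLib.Unitary.Generation

open CfsgLib.Unitary.FieldNorm CfsgLib.Unitary.Basic CfsgLib.Unitary.Order CfsgLib.Unitary.Isotropic CfsgLib.Unitary.Siegel

variable {F : Type*} [Field F] {q n : ℕ}

local notation "H" => Cfsg.hermForm n F q

/-- The unitary transvections. -/
def tvSet (n : ℕ) (F : Type*) [Field F] (q : ℕ) : Set (Cfsg.SU n F q) :=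
  {A | ∃ (v : Fin n → F) (c : F), Cfsg.hermForm n F q v v = 0 ∧
    ((A : Matrix.SpecialLinearGroup (Fin n) F) : Matrix (Fin n) (Fin n) F) = Cfsg.unitaryTransvection n q v c}

/-- The generated subgroup. -/
def TG (n : ℕ) (F : Type*) [Field F] (q : ℕ) : Subgroup (Cfsg.SU n F q) := Subgroup.closure (tvSet n F q)

/-- Coordinates below `j` vanish. -/
def InW (j : ℕ) (x : Fin n → F) : Prop := ∀ i : Fin n, (i : ℕ) < j → x i = 0

theorem inW_add {j : ℕ} {x y : Fin n → F} (hx : InW j x) (hy : InW j y) : InW j (x + y) := fun i hi => by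
  simp [hx i hi, hy i hi]

theorem inW_sub {j : ℕ} {x y : Fin n → F} (hx : InW j x) (hy : InW j y) : InW j (x - y) := fun i hi => by
  simp [hx i hi, hy i hi]

theorem inW_smul {j : ℕ} (c : F) {x : Fin n → F} (hx : InW j x) : InW j (c • x) := fun i hi => by simp [hx i hi]

/-- Elements of the generated group fixing the first `j` vectors. -/
def TW (n : ℕ) (F : Type*) [Field F] (q j : ℕ) : Set (Cfsg.SU n F q) :=
  {g | g ∈ TG n F q ∧ ∀ i : Fin n, (i : ℕ) < j → g.1.1 *ᵥ Pi.single i 1 = Pi.single i 1}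

theorem TW_mul {j : ℕ} {a b : Cfsg.SU n F q} (ha : a ∈ TW n F q j) (hb : b ∈ TW n F q j) : a * b ∈ TW n F q j :=
  ⟨mul_mem ha.1 hb.1, fun i hi => by
    show (a.1.1 * b.1.1) *ᵥ _ = _
    rw [← Matrix.mulVec_mulVec, hb.2 i hi, ha.2 i hi]⟩

theorem su_mulVec (a b : Cfsg.SU n F q) (x : Fin n → F) : (a * b).1.1 *ᵥ x = a.1.1 *ᵥ (b.1.1 *ᵥ x) :=
  (Matrix.mulVec_mulVec x a.1.1 b.1.1).symm

theorem su_inv_cancel (a : Cfsg.SU n F q) (x : Fin n → F) : (a⁻¹).1.1 *ᵥ (a.1.1 *ᵥ x) = x := by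
  rw [← su_mulVec, inv_mul_cancel]; exact Matrix.one_mulVec x

variable [Fintype F]

theorem exists_tv (hF : Fintype.card F = q ^ 2) {z : Fin n → F} {c : F} (hz : H z z = 0) (hc : c ^ q = -c) :
    ∃ g : Cfsg.SU n F q, g ∈ TG n F q ∧ ∀ x, g.1.1 *ᵥ x = x + (c * H x z) • z := by
  have h0 : H (0 : Fin n → F) z = 0 := by simp [Cfsg.hermForm]
  have h00 : ∀ x, H x (0 : Fin n → F) = 0 := fun x => by simp [Cfsg.hermForm, q_ne_zero hF]
  obtain ⟨g, hg⟩ := exists_elt hF (w := 0) (a := c) hz h0 (by rw [hc, h00]; ring)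
  have hgx : ∀ x, g.1.1 *ᵥ x = x + (c * H x z) • z := fun x => by
    rw [hg, E_mulVec, h00, smul_zero, add_zero, sub_zero]
  exact ⟨g, Subgroup.subset_closure ⟨z, c, hz, Matrix.ext_iff_mulVec.2 fun x => by rw [hgx, umat_mulVec]⟩, hgx⟩

theorem exists_anti (hF : Fintype.card F = q ^ 2) : ∃ d : F, d ≠ 0 ∧ d ^ q = -d := by
  classical
  have h2 := two_le_q hF
  obtain ⟨y, hy⟩ : ∃ y : F, y ^ q - y ≠ 0 := by
    by_contra h
    simp only [not_exists, not_not] at h
    let P : Polynomial F := Polynomial.X ^ q - Polynomial.X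
    have hP : P ≠ 0 := FiniteField.X_pow_card_sub_X_ne_zero F (by omega)
    have hall : (Finset.univ : Finset F) ⊆ P.roots.toFinset := fun x _ => by
      rw [Multiset.mem_toFinset, Polynomial.mem_roots hP]
      simp [P, h x]
    have := (Finset.card_le_card hall).trans ((Multiset.toFinset_card_le _).trans P.card_roots')
    rw [Finset.card_univ, hF, FiniteField.X_pow_card_sub_X_natDegree_eq F (by omega)] at this
    nlinarith
  exact ⟨y ^ q - y, hy, by rw [sub_pow_q hF, pow_q_q hF, neg_sub]⟩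

/-- A single transvection. -/
theorem step (hF : Fintype.card F = q ^ 2) {j : ℕ} {u v : Fin n → F} (hu : InW j u) (hv : InW j v)
    (hiu : H u u = 0) (hiv : H v v = 0) (h0 : H u v ≠ 0) (ha : (H u v) ^ q = -H u v) :
    ∃ g ∈ TW n F q j, g.1.1 *ᵥ u = v := by
  have hvu : H v u = -H u v := by rw [← H_conj hF, ha]
  have hz : H (u - v) (u - v) = 0 := by
    rw [H_sub_right hF, H_sub_left, H_sub_left, hiu, hiv, hvu]; ring
  obtain ⟨g, hgT, hg⟩ := exists_tv hF (z := u - v) (c := (H u v)⁻¹) hz (by rw [inv_pow, ha, inv_neg])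
  refine ⟨g, ⟨hgT, fun i hi => ?_⟩, ?_⟩
  · rw [hg, H_single_left, inW_sub hu hv i hi, zero_pow (q_ne_zero hF), mul_zero, zero_smul, add_zero]
  · rw [hg, H_sub_right hF, hiu, zero_sub, mul_neg, inv_mul_cancel₀ h0, neg_one_smul]; abel

theorem line_step (hF : Fintype.card F = q ^ 2) {j : ℕ} {u v : Fin n → F} (hu : InW j u) (hv : InW j v)
    (hiu : H u u = 0) (hiv : H v v = 0) (h0 : H u v ≠ 0) :
    ∃ g ∈ TW n F q j, ∃ l : F, l ≠ 0 ∧ g.1.1 *ᵥ u = l • v := by
  obtain ⟨d, hd, hdq⟩ := exists_anti hF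
  set l := (d / H u v) ^ q with hl
  have hl0 : l ≠ 0 := pow_ne_zero _ (div_ne_zero hd h0)
  have hlv : H u (l • v) = d := by rw [H_smul_right, hl, pow_q_q hF, div_mul_cancel₀ _ h0]
  obtain ⟨g, hg, hgu⟩ := step hF hu (inW_smul l hv) hiu (by rw [H_smul_left, H_smul_right, hiv, mul_zero, mul_zero])
    (by rw [hlv]; exact hd) (by rw [hlv]; exact hdq)
  exact ⟨g, hg, l, hl0, hgu⟩

theorem single_inW {j : ℕ} {i : Fin n} (hi : j ≤ (i : ℕ)) : InW j (Pi.single i (1 : F)) := fun k hk =>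
  Pi.single_eq_of_ne (fun h => by subst h; omega) _

/-- Moving into standard position inside the last `n - j` coordinates. -/
theorem to_std' (hF : Fintype.card F = q ^ 2) {j : ℕ} (i0 i1 : Fin n) (hj0 : (i0 : ℕ) = j) (hj1 : (i1 : ℕ) = j + 1)
    {u : Fin n → F} (huW : InW j u) (hu : u ≠ 0) (hiso : H u u = 0) {ζ : F} (hζ : ζ ^ (q + 1) = -1) :
    ∃ g ∈ fixer n F q j, g.1.1 *ᵥ u = Pi.single i0 1 + ζ • Pi.single i1 1 := by
  classical
  have hq0 := q_ne_zero hF
  have hζ0 : ζ ≠ 0 := fun h => by rw [h, zero_pow (by omega)] at hζ; simp at hζ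
  obtain ⟨k, hk⟩ : ∃ k, u k ≠ 0 := Function.ne_iff.1 hu
  have hkj : j ≤ (k : ℕ) := not_lt.1 fun h => hk (huW k h)
  have hx : H (Pi.single k 1) u ≠ 0 := by rw [H_single_left]; exact pow_ne_zero _ hk
  set v := (H (Pi.single k 1) u)⁻¹ • (Pi.single k (1 : F) : Fin n → F) with hv
  have hvW : InW j v := inW_smul _ (single_inW hkj)
  have hvu : H v u = 1 := by rw [hv, H_smul_left, inv_mul_cancel₀ hx]
  have huv : H u v = 1 := by rw [← H_conj hF, hvu, one_pow]
  obtain ⟨t, ht⟩ := exists_trace_one hF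
  set a := (1 - H v v) * t with ha
  have haq : a + a ^ q = 1 - H v v := by
    rw [ha, mul_pow, sub_pow_q hF, one_pow, H_self_fixed hF v, ← mul_add, ht, mul_one]
  set e1 := a • u + v with he1
  have h11 : H e1 e1 = 1 := by
    simp only [he1, H_add_left, H_add_right hF, H_smul_left, H_smul_right, hiso, huv, hvu]
    linear_combination haq
  have h1u : H e1 u = 1 := by simp only [he1, H_add_left, H_smul_left, hiso, hvu]; ring
  have hu1 : H u e1 = 1 := by rw [← H_conj hF, h1u, one_pow]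
  set e2 := e1 - u with he2
  have h12 : H e2 e1 = 0 := by rw [he2, H_sub_left, h11, hu1, sub_self]
  have h22 : H e2 e2 = -1 := by
    rw [he2, H_sub_right hF, H_sub_left, H_sub_left, h11, hu1, h1u, hiso]; ring
  set f2 := (-ζ⁻¹) • e2 with hf2
  have hf22 : H f2 f2 = 1 := by
    rw [hf2, H_smul_left, H_smul_right, h22, neg_pow_q hF, inv_pow]
    have : ζ * ζ ^ q = -1 := by rw [← pow_succ', hζ]
    have hzq : ζ ^ q ≠ 0 := pow_ne_zero _ hζ0
    field_simp
    linear_combination -this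
  have he1W : InW j e1 := inW_add (inW_smul _ huW) hvW
  obtain ⟨g1, hg1f, hg1⟩ := trans_norm_one (n := n) hF (j := j) (u := e1) (v := Pi.single i0 1) he1W
    (single_inW hj0.ge) h11 (by rw [H_single_left, Pi.single_eq_same, one_pow])
  obtain ⟨g2, hg2f, hg2⟩ := trans_norm_one (n := n) hF (j := j + 1) (u := g1.1.1 *ᵥ f2) (v := Pi.single i1 1)
    (fun i hi => by
      rcases lt_or_eq_of_le (Nat.le_of_lt_succ hi) with h | h
      · exact fixer_preserves_orth hF hg1f (inW_smul _ (inW_sub he1W huW)) i h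
      · have hh := GU_H g1 f2 e1
        rw [hg1, hf2, H_smul_left, h12, mul_zero, H_single_right hq0] at hh
        rw [show i = i0 from Fin.ext (h.trans hj0.symm), hf2]; exact hh)
    (single_inW hj1.ge)
    (by rw [GU_H, hf22]) (by rw [H_single_left, Pi.single_eq_same, one_pow])
  refine ⟨g2 * g1, mul_mem (fun i hi => hg2f i (Nat.lt_succ_of_lt hi)) hg1f, ?_⟩
  have hu' : u = e1 + ζ • f2 := by
    rw [hf2, smul_smul, mul_neg, mul_inv_cancel₀ hζ0, neg_one_smul, he2]; abel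
  rw [mulVec_mul, hu', Matrix.mulVec_add, Matrix.mulVec_smul, hg1, Matrix.mulVec_add, Matrix.mulVec_smul, hg2,
    hg2f i0 (by omega)]

theorem exists_zeta (hF : Fintype.card F = q ^ 2) :
    ∃ ζ η : F, ζ ^ (q + 1) = -1 ∧ η ^ (q + 1) = -1 ∧ ζ ≠ η ∧ 1 + η * ζ ^ q ≠ 0 := by
  obtain ⟨ζ, hζ⟩ := exists_norm hF (c := (-1 : F)) (by simp) (by rw [neg_pow_q hF, one_pow])
  obtain ⟨t, ht, ht1, -⟩ := exists_unit_ne_one hF
  have hζ0 : ζ ≠ 0 := fun h => by rw [h, zero_pow (by omega)] at hζ; simp at hζ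
  refine ⟨ζ, ζ * t, hζ, by rw [mul_pow, hζ, ht, mul_one], fun h => ht1 ?_, fun h => ht1 ?_⟩
  · exact (mul_left_cancel₀ hζ0 (by rw [mul_one]; exact h.symm))
  · rw [pow_succ'] at hζ
    linear_combination (-1 : F) * h + t * hζ

/-- A partner and an orthogonal unit vector. -/
theorem exists_frame (hF : Fintype.card F = q ^ 2) {j : ℕ} (hj : j + 3 ≤ n) {u : Fin n → F} (huW : InW j u)
    (hu : u ≠ 0) (hiso : H u u = 0) :
    ∃ v e, InW j v ∧ InW j e ∧ H v v = 0 ∧ H v u = 1 ∧ H e u = 0 ∧ H e v = 0 ∧ H e e = 1 := by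
  have hq0 := q_ne_zero hF
  obtain ⟨ζ, η, hζ, hη, -, hne⟩ := exists_zeta hF
  obtain ⟨g, hgf, hg⟩ := to_std' hF ⟨j, by omega⟩ ⟨j + 1, by omega⟩ rfl rfl huW hu hiso hζ
  set i0 : Fin n := ⟨j, by omega⟩
  set i1 : Fin n := ⟨j + 1, by omega⟩
  set i2 : Fin n := ⟨j + 2, by omega⟩
  have h01 : i0 ≠ i1 := by simp [i0, i1, Fin.ext_iff]
  have h02 : i0 ≠ i2 := by simp [i0, i2, Fin.ext_iff]
  have h12 : i1 ≠ i2 := by simp [i1, i2, Fin.ext_iff]
  set a := (1 + η * ζ ^ q)⁻¹ with ha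
  set v0 : Fin n → F := a • (Pi.single i0 1 + η • Pi.single i1 1) with hv0
  set e0 : Fin n → F := Pi.single i2 1 with he0
  have hback : ∀ x, g.1.1 *ᵥ ((g⁻¹).1.1 *ᵥ x) = x := fun x => by rw [← mulVec_mul, mul_inv_cancel]; exact Matrix.one_mulVec x
  refine ⟨(g⁻¹).1.1 *ᵥ v0, (g⁻¹).1.1 *ᵥ e0, ?_, ?_, ?_, ?_, ?_, ?_, ?_⟩
  · exact fun i hi => fixer_preserves_orth hF (inv_mem hgf)
      (inW_smul _ (inW_add (single_inW (le_refl _)) (inW_smul _ (single_inW (Nat.le_succ j))))) i hi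
  · exact fun i hi => fixer_preserves_orth hF (inv_mem hgf) (single_inW (Nat.le_add_right j 2)) i hi
  · rw [GU_H, hv0]
    simp only [H_smul_left, H_smul_right, H_add_left, H_add_right hF, H_single_left, Pi.single_eq_same,
      Pi.single_eq_of_ne h01, Pi.single_eq_of_ne h01.symm, one_pow, zero_pow hq0]
    rw [pow_succ'] at hη
    linear_combination (a * a ^ q) * hη
  · rw [← GU_H g, hback, hg, hv0]
    simp only [H_smul_left, H_smul_right, H_add_left, H_add_right hF, H_single_left, Pi.single_eq_same,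
      Pi.single_eq_of_ne h01, Pi.single_eq_of_ne h01.symm, one_pow, zero_pow hq0]
    rw [ha]; linear_combination inv_mul_cancel₀ hne
  · rw [← GU_H g, hback, hg, he0, H_single_left]
    simp [h02.symm, h12.symm, hq0]
  · rw [GU_H, he0, hv0, H_single_left]
    simp [h02.symm, h12.symm, hq0]
  · rw [GU_H, he0, H_single_left, Pi.single_eq_same, one_pow]

/-- Scalars. -/
theorem scalar_step (hF : Fintype.card F = q ^ 2) {j : ℕ} (hj : j + 3 ≤ n) {u : Fin n → F} (huW : InW j u)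
    (hu : u ≠ 0) (hiso : H u u = 0) {l : F} (hl : l ≠ 0) : ∃ g ∈ TW n F q j, g.1.1 *ᵥ u = l • u := by
  obtain ⟨v, e, hvW, heW, hvv, hvu, heu, hev, hee⟩ := exists_frame hF hj huW hu hiso
  have hq0 := q_ne_zero hF
  have huv : H u v = 1 := by rw [← H_conj hF, hvu, one_pow]
  have hue : H u e = 0 := by rw [← H_conj hF, heu, zero_pow hq0]
  have hve : H v e = 0 := by rw [← H_conj hF, hev, zero_pow hq0]
  obtain ⟨d, hd, hdq⟩ := exists_anti hF
  obtain ⟨g1, hg1, hg1u⟩ := step hF huW (inW_smul d hvW) hiso (by rw [H_smul_left, H_smul_right, hvv, mul_zero, mul_zero])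
    (by rw [H_smul_right, huv, mul_one]; exact pow_ne_zero _ hd)
    (by rw [H_smul_right, huv, mul_one, pow_q_q hF, hdq, neg_neg])
  have hlu : H (l • u) (l • u) = 0 := by rw [H_smul_left, H_smul_right, hiso, mul_zero, mul_zero]
  by_cases hlf : l ^ q = l
  · obtain ⟨g2, hg2, hg2u⟩ := step hF (inW_smul d hvW) (inW_smul l huW)
      (by rw [H_smul_left, H_smul_right, hvv, mul_zero, mul_zero]) hlu
      (by rw [H_smul_left, H_smul_right, hvu, mul_one]; exact mul_ne_zero hd (pow_ne_zero _ hl))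
      (by rw [H_smul_left, H_smul_right, hvu, mul_one, mul_pow, pow_q_q hF, hdq, hlf]; ring)
    exact ⟨g2 * g1, TW_mul hg2 hg1, by rw [su_mulVec, hg1u, hg2u]⟩
  · set τ := l ^ q * d + (l ^ q * d) ^ q with hτ
    have hτ0 : τ ≠ 0 := by
      rw [hτ, mul_pow, pow_q_q hF, hdq]
      intro h
      have h' : d * (l ^ q - l) = 0 := by linear_combination h
      exact hlf (sub_eq_zero.1 ((mul_eq_zero.1 h').resolve_left hd))
    have hτq : τ ^ q = τ := by rw [hτ, add_pow_q hF, pow_q_q hF, add_comm]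
    set s := -(l ^ q * d) / τ with hs
    have hs0 : s ≠ 0 := div_ne_zero (neg_ne_zero.2 (mul_ne_zero (pow_ne_zero _ hl) hd)) hτ0
    have hsq : s + s ^ q = -1 := by
      rw [hs, div_pow, neg_pow_q hF, hτq, ← add_div, ← neg_add, ← hτ, neg_div, div_self hτ0]
    set w := s • u + v + e with hw
    have hwW : InW j w := inW_add (inW_add (inW_smul _ huW) hvW) heW
    have hww : H w w = 0 := by
      simp only [hw, H_add_left, H_add_right hF, H_smul_left, H_smul_right, hiso, hvu, heu, hev, hee, huv, hue, hve, hvv]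
      linear_combination hsq
    have hvw : H v w = s ^ q := by
      simp only [hw, H_add_right hF, H_smul_right, hvu, hvv, hve]; ring
    have hwu : H w u = 1 := by simp only [hw, H_add_left, H_smul_left, hiso, hvu, heu]; ring
    have hPiso : H (s⁻¹ • w) (s⁻¹ • w) = 0 := by rw [H_smul_left, H_smul_right, hww, mul_zero, mul_zero]
    have h12 : H (d • v) (s⁻¹ • w) = d := by
      rw [H_smul_left, H_smul_right, hvw, inv_pow, inv_mul_cancel₀ (pow_ne_zero _ hs0), mul_one]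
    obtain ⟨g2, hg2, hg2u⟩ := step hF (inW_smul d hvW) (inW_smul s⁻¹ hwW)
      (by rw [H_smul_left, H_smul_right, hvv, mul_zero, mul_zero]) hPiso (by rw [h12]; exact hd) (by rw [h12]; exact hdq)
    have h23 : H (s⁻¹ • w) (l • u) = -τ / d := by
      rw [H_smul_left, H_smul_right, hwu, mul_one, hs, inv_div]
      field_simp
    obtain ⟨g3, hg3, hg3u⟩ := step hF (inW_smul s⁻¹ hwW) (inW_smul l huW) hPiso hlu
      (by rw [h23]; exact div_ne_zero (neg_ne_zero.2 hτ0) hd)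
      (by rw [h23, div_pow, neg_pow_q hF, hτq, hdq, div_neg])
    exact ⟨g3 * g2 * g1, TW_mul (TW_mul hg3 hg2) hg1, by rw [su_mulVec, su_mulVec, hg1u, hg2u, hg3u]⟩

/-- The generated group is transitive on isotropic vectors. -/
theorem transitive_TW (hF : Fintype.card F = q ^ 2) {j : ℕ} (hj : j + 3 ≤ n) {u v : Fin n → F} (huW : InW j u)
    (hvW : InW j v) (hu : u ≠ 0) (hv : v ≠ 0) (hiu : H u u = 0) (hiv : H v v = 0) :
    ∃ g ∈ TW n F q j, g.1.1 *ᵥ u = v := by
  have fin : ∀ g ∈ TW n F q j, ∀ l : F, l ≠ 0 → g.1.1 *ᵥ u = l • v → ∃ g ∈ TW n F q j, g.1.1 *ᵥ u = v := by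
    intro g hg l hl hgu
    obtain ⟨k, hk, hkv⟩ := scalar_step hF hj hvW hv hiv (inv_ne_zero hl)
    refine ⟨k * g, TW_mul hk hg, ?_⟩
    rw [su_mulVec, hgu, Matrix.mulVec_smul, hkv, smul_smul, mul_inv_cancel₀ hl, one_smul]
  have via : ∀ z, InW j z → H z z = 0 → H u z ≠ 0 → H z v ≠ 0 → ∃ g ∈ TW n F q j, g.1.1 *ᵥ u = v := by
    intro z hzW hz h1 h2
    obtain ⟨g, hg, l, hl, hgu⟩ := line_step hF huW hzW hiu hz h1
    obtain ⟨k, hk, m, hm, hkz⟩ := line_step hF hzW hvW hz hiv h2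
    refine fin (k * g) (TW_mul hk hg) (l * m) (mul_ne_zero hl hm) ?_
    rw [su_mulVec, hgu, Matrix.mulVec_smul, hkz, smul_smul]
  by_cases h : H u v = 0
  · obtain ⟨u', -, hu'W, -, hu'0, hu'u, -, -, -⟩ := exists_frame hF hj huW hu hiu
    obtain ⟨v', -, hv'W, -, hv'0, hv'v, -, -, -⟩ := exists_frame hF hj hvW hv hiv
    have huu' : H u u' = 1 := by rw [← H_conj hF, hu'u, one_pow]
    by_cases h1 : H u' v = 0
    · by_cases h2 : H u v' = 0
      · set k := H u' v' with hk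
        obtain ⟨b, hb, hbk⟩ : ∃ b : F, b ≠ 0 ∧ b ^ q * k + (b ^ q * k) ^ q = 0 := by
          by_cases hk0 : k = 0
          · exact ⟨1, one_ne_zero, by simp [hk0, q_ne_zero hF]⟩
          · obtain ⟨d, hd, hdq⟩ := exists_anti hF
            refine ⟨(d / k) ^ q, pow_ne_zero _ (div_ne_zero hd hk0), ?_⟩
            rw [pow_q_q hF, div_mul_cancel₀ _ hk0, hdq, add_neg_cancel]
        refine via (u' + b • v') (inW_add hu'W (inW_smul b hv'W)) ?_ ?_ ?_
        · simp only [H_add_left, H_add_right hF, H_smul_left, H_smul_right, hu'0, hv'0]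
          rw [mul_pow, pow_q_q hF, hk, H_conj hF] at hbk
          linear_combination hbk
        · rw [H_add_right hF, H_smul_right, huu', h2, mul_zero, add_zero]; exact one_ne_zero
        · rw [H_add_left, H_smul_left, h1, hv'v, zero_add, mul_one]; exact hb
      · exact via v' hv'W hv'0 h2 (by rw [hv'v]; exact one_ne_zero)
    · exact via u' hu'W hu'0 (by rw [huu']; exact one_ne_zero) h1
  · obtain ⟨g, hg, l, hl, hgu⟩ := line_step hF huW hvW hiu hiv h
    exact fin g hg l hl hgu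

end CfsgLib.Unitary.Generation
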