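import Mathlib
import Cfsg.Agent.Lib.Unitary.Generation

/-!
The main induction for generation of SU_n by transvections.
-/

set_option autoImplicit false
open scoped Matrix

namespace CfsgLib.Unitary.GenerationMain

open CfsgLib.Unitary.FieldNorm CfsgLib.Unitary.Basic CfsgLib.Unitary.Order CfsgLib.Unitary.Isotropic CfsgLib.Unitary.Siegel
open CfsgLib.Unitary.Generation

variable {F : Type*} [Field F] [Fintype F] {q n : ℕ}

local notation "H" => Cfsg.hermForm n F q

theorem H_zero_right (hF : Fintype.card F = q ^ 2) (x : Fin n → F) : H x (0 : Fin n → F) = 0 := by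
  simp [Cfsg.hermForm, q_ne_zero hF]

theorem tg_normal (hF : Fintype.card F = q ^ 2) : (TG n F q).Normal := by
  refine ⟨fun a ha h => ?_⟩
  have hle : TG n F q ≤ (TG n F q).comap (MulAut.conj h).toMonoidHom := by
    refine (Subgroup.closure_le _).2 ?_
    rintro t ⟨v, c, hv, ht⟩
    refine Subgroup.subset_closure ⟨h.1.1 *ᵥ v, c, by rw [SU_H, hv], Matrix.ext_iff_mulVec.2 fun x => ?_⟩
    show (h * t * h⁻¹).1.1 *ᵥ x = _
    obtain ⟨y, rfl⟩ : ∃ y, h.1.1 *ᵥ y = x := ⟨(h⁻¹).1.1 *ᵥ x, by rw [← su_mulVec, mul_inv_cancel]; exact Matrix.one_mulVec x⟩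
    rw [su_mulVec, su_mulVec, su_inv_cancel, ht, umat_mulVec, umat_mulVec, SU_H, Matrix.mulVec_add, Matrix.mulVec_smul]
  exact hle ha

theorem mem_of_conj (hF : Fintype.card F = q ^ 2) {g h : Cfsg.SU n F q} (hg : h * g * h⁻¹ ∈ TG n F q) : g ∈ TG n F q := by
  have := (tg_normal (n := n) hF).conj_mem _ hg h⁻¹
  rwa [show h⁻¹ * (h * g * h⁻¹) * h⁻¹⁻¹ = g by group] at this

theorem step' (hF : Fintype.card F = q ^ 2) {u v : Fin n → F}
    (hiu : H u u = 0) (hiv : H v v = 0) (h0 : H u v ≠ 0) (ha : (H u v) ^ q = -H u v) :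
    ∃ g ∈ TG n F q, g.1.1 *ᵥ u = v ∧ ∀ x, H x u = H x v → g.1.1 *ᵥ x = x := by
  have hvu : H v u = -H u v := by rw [← H_conj hF, ha]
  have hz : H (u - v) (u - v) = 0 := by
    rw [H_sub_right hF, H_sub_left, H_sub_left, hiu, hiv, hvu]; ring
  obtain ⟨g, hgT, hg⟩ := exists_tv hF (z := u - v) (c := (H u v)⁻¹) hz (by rw [inv_pow, ha, inv_neg])
  refine ⟨g, hgT, ?_, fun x hx => ?_⟩
  · rw [hg, H_sub_right hF, hiu, zero_sub, mul_neg, inv_mul_cancel₀ h0, neg_one_smul]; abel
  · rw [hg, H_sub_right hF, hx, sub_self, mul_zero, zero_smul, add_zero]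

theorem plane_scalar (hF : Fintype.card F = q ^ 2) {u v : Fin n → F} (hiu : H u u = 0) (hiv : H v v = 0)
    (hvu : H v u = 1) {l : F} (hl : l ≠ 0) (hlf : l ^ q = l) :
    ∃ g ∈ TG n F q, g.1.1 *ᵥ u = l • u ∧ ∀ x, H x u = 0 → H x v = 0 → g.1.1 *ᵥ x = x := by
  have huv : H u v = 1 := by rw [← H_conj hF, hvu, one_pow]
  obtain ⟨d, hd, hdq⟩ := exists_anti hF
  obtain ⟨g1, hg1, hg1u, hg1f⟩ := step' hF hiu (v := d • v)
    (by rw [H_smul_left, H_smul_right, hiv, mul_zero, mul_zero])
    (by rw [H_smul_right, huv, mul_one]; exact pow_ne_zero _ hd)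
    (by rw [H_smul_right, huv, mul_one, pow_q_q hF, hdq, neg_neg])
  obtain ⟨g2, hg2, hg2u, hg2f⟩ := step' hF (u := d • v) (v := l • u)
    (by rw [H_smul_left, H_smul_right, hiv, mul_zero, mul_zero])
    (by rw [H_smul_left, H_smul_right, hiu, mul_zero, mul_zero])
    (by rw [H_smul_left, H_smul_right, hvu, mul_one]; exact mul_ne_zero hd (pow_ne_zero _ hl))
    (by rw [H_smul_left, H_smul_right, hvu, mul_one, mul_pow, pow_q_q hF, hdq, hlf]; ring)
  refine ⟨g2 * g1, mul_mem hg2 hg1, by rw [su_mulVec, hg1u, hg2u], fun x h1 h2 => ?_⟩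
  rw [su_mulVec, hg1f x (by rw [H_smul_right, h1, h2, mul_zero]), hg2f x (by rw [H_smul_right, H_smul_right, h1, h2, mul_zero, mul_zero])]

/-- Some Siegel element with this vector is generated by transvections. -/
def Good (q : ℕ) (u w : Fin n → F) : Prop :=
  ∃ g : Cfsg.SU n F q, g ∈ TG n F q ∧ ∃ a, g.1.1 = E q u w a ∧ a + a ^ q + Cfsg.hermForm n F q w w = 0

theorem E_mul (hF : Fintype.card F = q ^ 2) {u w w' : Fin n → F} (a a' : F) (hu : H u u = 0) (hwu : H w u = 0)
    (hw'u : H w' u = 0) : E q u w a * E q u w' a' = E q u (w + w') (a + a' - H w' w) := by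
  have huw : H u w = 0 := by rw [← H_conj hF, hwu, zero_pow (q_ne_zero hF)]
  refine Matrix.ext_iff_mulVec.2 fun x => ?_
  simp only [← Matrix.mulVec_mulVec, E_mulVec, H_add_left, H_add_right hF, H_smul_left, hu, hwu, hw'u, huw]
  module

theorem good_add (hF : Fintype.card F = q ^ 2) {u w w' : Fin n → F} (hu : H u u = 0) (hwu : H w u = 0) (hw'u : H w' u = 0)
    (h : Good q u w) (h' : Good q u w') : Good q u (w + w') := by
  obtain ⟨g, hg, a, hga, ha⟩ := h
  obtain ⟨g', hg', a', hga', ha'⟩ := h'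
  refine ⟨g * g', mul_mem hg hg', a + a' - H w' w, ?_, ?_⟩
  · show g.1.1 * g'.1.1 = _
    rw [hga, hga', E_mul hF a a' hu hwu hw'u]
  · simp only [sub_pow_q hF, add_pow_q hF, H_add_left, H_add_right hF, H_conj hF]
    linear_combination ha + ha'

theorem good_iso (hF : Fintype.card F = q ^ 2) {u w : Fin n → F} (hu : H u u = 0) (hwu : H w u = 0) (hw : H w w = 0) :
    Good q u w := by
  have hq0 := q_ne_zero hF
  obtain ⟨d, hd, hdq⟩ := exists_anti hF
  set z := d⁻¹ • w with hz
  have hzu : H z u = 0 := by rw [hz, H_smul_left, hwu, mul_zero]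
  have huz : H u z = 0 := by rw [← H_conj hF, hzu, zero_pow hq0]
  have hzz : H z z = 0 := by rw [hz, H_smul_left, H_smul_right, hw, mul_zero, mul_zero]
  obtain ⟨g1, h1, e1⟩ := exists_tv hF (z := u + z) (c := d)
    (by simp only [H_add_left, H_add_right hF, hu, hzz, hzu, huz, add_zero]) hdq
  obtain ⟨g2, h2, e2⟩ := exists_tv hF hu (c := -d) (by rw [neg_pow_q hF, hdq])
  obtain ⟨g3, h3, e3⟩ := exists_tv hF hzz (c := -d) (by rw [neg_pow_q hF, hdq])
  have hwd : w = d • z := by rw [hz, smul_smul, mul_inv_cancel₀ hd, one_smul]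
  refine ⟨g1 * g2 * g3, mul_mem (mul_mem h1 h2) h3, 0, Matrix.ext_iff_mulVec.2 fun x => ?_,
    by rw [hw, zero_pow hq0]; ring⟩
  rw [su_mulVec, su_mulVec, e3, e2, e1, E_mulVec, hwd]
  simp only [H_add_left, H_add_right hF, H_smul_left, H_smul_right, hu, hzz, hzu, huz, hdq]
  module

theorem E_conj (hF : Fintype.card F = q ^ 2) (g : Cfsg.SU n F q) (u w : Fin n → F) (a : F) (x : Fin n → F) :
    g.1.1 *ᵥ (E q u w a *ᵥ x) = E q (g.1.1 *ᵥ u) (g.1.1 *ᵥ w) a *ᵥ (g.1.1 *ᵥ x) := by
  simp only [E_mulVec, Matrix.mulVec_add, Matrix.mulVec_smul, SU_H]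

theorem good_conj (hF : Fintype.card F = q ^ 2) {u w : Fin n → F} (h : Cfsg.SU n F q) (hg : Good q u w) :
    Good q (h.1.1 *ᵥ u) (h.1.1 *ᵥ w) := by
  obtain ⟨g, hgT, a, hga, ha⟩ := hg
  refine ⟨h * g * h⁻¹, (tg_normal hF).conj_mem _ hgT h, a, Matrix.ext_iff_mulVec.2 fun x => ?_, by rw [SU_H]; exact ha⟩
  obtain ⟨y, rfl⟩ : ∃ y, h.1.1 *ᵥ y = x := ⟨(h⁻¹).1.1 *ᵥ x, by rw [← su_mulVec, mul_inv_cancel]; exact Matrix.one_mulVec x⟩
  rw [su_mulVec, su_mulVec, su_inv_cancel, hga, E_conj hF]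

theorem u0_iso (hF : Fintype.card F = q ^ 2) {i0 i1 : Fin n} (h01 : i0 ≠ i1) {ζ : F} (hζ : ζ ^ (q + 1) = -1) :
    H (Pi.single i0 1 + ζ • Pi.single i1 1) (Pi.single i0 1 + ζ • Pi.single i1 1) = 0 := by
  simp only [H_smul_left, H_smul_right, H_add_left, H_add_right hF, H_single_left, Pi.single_eq_same,
    Pi.single_eq_of_ne h01, Pi.single_eq_of_ne h01.symm, one_pow, zero_pow (q_ne_zero hF)]
  rw [pow_succ'] at hζ
  linear_combination hζ

theorem u0_ne {i0 i1 : Fin n} (h01 : i0 ≠ i1) (ζ : F) : (Pi.single i0 1 + ζ • Pi.single i1 1 : Fin n → F) ≠ 0 := fun h => by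
  simpa [Pi.single_eq_of_ne h01] using congrFun h i0

/-- All Siegel vectors are good. -/
theorem good_all (hF : Fintype.card F = q ^ 2) (hn : 4 ≤ n ∨ (n = 3 ∧ 3 ≤ q)) {u w : Fin n → F} (hu0 : u ≠ 0)
    (hu : H u u = 0) (hwu : H w u = 0) : Good q u w := by
  classical
  have hn3 : 3 ≤ n := by omega
  have hq0 := q_ne_zero hF
  obtain ⟨ζ, η, hζ, hη, hne, hden⟩ := exists_zeta hF
  set i0 : Fin n := ⟨0, by omega⟩
  set i1 : Fin n := ⟨1, by omega⟩
  have h01 : i0 ≠ i1 := by simp [i0, i1, Fin.ext_iff]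
  set u0 : Fin n → F := Pi.single i0 1 + ζ • Pi.single i1 1 with hu0def
  obtain ⟨g, hgdet, hgu⟩ := to_std hF hn3 hu0 hu hζ
  let G : Cfsg.SU n F q := ⟨⟨g.1.1, hgdet⟩, g.2⟩
  suffices key : ∀ y, H y u0 = 0 → Good q u0 y by
    have hk := key (G.1.1 *ᵥ w) (by
      rw [show u0 = G.1.1 *ᵥ u from hgu.symm, SU_H]; exact hwu)
    have := good_conj hF G⁻¹ hk
    rwa [show u0 = G.1.1 *ᵥ u from hgu.symm, su_inv_cancel, su_inv_cancel] at this
  have hu0iso : H u0 u0 = 0 := u0_iso hF h01 hζ
  have hsingle : ∀ (i : Fin n), 2 ≤ (i : ℕ) → ∀ b : F, Good q u0 (b • Pi.single i 1) := by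
    intro i hi b
    have hi0 : i0 ≠ i := by simp [i0, Fin.ext_iff]; omega
    have hi1 : i1 ≠ i := by simp [i1, Fin.ext_iff]; omega
    have hperp : ∀ (k : Fin n), 2 ≤ (k : ℕ) → H (Pi.single k (1 : F)) u0 = 0 := fun k hk => by
      rw [H_single_left, hu0def]
      have : i0 ≠ k := by simp [i0, Fin.ext_iff]; omega
      have : i1 ≠ k := by simp [i1, Fin.ext_iff]; omega
      simp [hq0, Ne.symm ‹i0 ≠ k›, Ne.symm ‹i1 ≠ k›]
    rcases hn with hn4 | ⟨hn3', hq3⟩
    · obtain ⟨k, hk, hki⟩ : ∃ k : Fin n, 2 ≤ (k : ℕ) ∧ i ≠ k := by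
        by_cases h : (i : ℕ) = 2
        · exact ⟨⟨3, by omega⟩, by norm_num, by simp [Fin.ext_iff]; omega⟩
        · exact ⟨⟨2, by omega⟩, le_refl 2, by simp [Fin.ext_iff]; omega⟩
      have hsub : η - ζ ≠ 0 := sub_ne_zero.2 (Ne.symm hne)
      have hpart : ∀ γ θ : F, θ ^ (q + 1) = -1 → Good q u0 (γ • (Pi.single i 1 + θ • Pi.single k 1)) ∧
          H (γ • (Pi.single i 1 + θ • Pi.single k (1 : F))) u0 = 0 := fun γ θ hθ => by
        have h2 : H (γ • (Pi.single i 1 + θ • Pi.single k (1 : F))) u0 = 0 := by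
          rw [H_smul_left, H_add_left, H_smul_left, hperp i hi, hperp k hk, mul_zero, add_zero, mul_zero]
        exact ⟨good_iso hF hu0iso h2 (by rw [H_smul_left, H_smul_right, u0_iso hF hki hθ, mul_zero, mul_zero]), h2⟩
      have := good_add hF hu0iso (hpart (b * η / (η - ζ)) ζ hζ).2 (hpart (-(b * ζ) / (η - ζ)) η hη).2
        (hpart (b * η / (η - ζ)) ζ hζ).1 (hpart (-(b * ζ) / (η - ζ)) η hη).1
      convert this using 1
      rw [smul_add, smul_add, smul_smul, smul_smul]
      funext r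
      simp only [Pi.add_apply, Pi.smul_apply, smul_eq_mul]
      field_simp
      ring
    · -- n = 3
      set a := (1 + η * ζ ^ q)⁻¹ with ha
      set v0 : Fin n → F := a • (Pi.single i0 1 + η • Pi.single i1 1) with hv0
      have hv0iso : H v0 v0 = 0 := by rw [hv0, H_smul_left, H_smul_right, u0_iso hF h01 hη, mul_zero, mul_zero]
      have hv0u : H v0 u0 = 1 := by
        rw [hv0, hu0def]
        simp only [H_smul_left, H_smul_right, H_add_left, H_add_right hF, H_single_left, Pi.single_eq_same,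
          Pi.single_eq_of_ne h01, Pi.single_eq_of_ne h01.symm, one_pow, zero_pow hq0]
        rw [ha]; linear_combination inv_mul_cancel₀ hden
      obtain ⟨l, hl, hlq, hl1⟩ : ∃ l : F, l ≠ 0 ∧ l ^ q = l ∧ l ≠ 1 := by
        by_contra h
        simp only [not_exists, not_and, not_not] at h
        have hsub : ∀ y : Fˣ, y ^ (q - 1) = 1 → y = 1 := fun y hy => Units.ext (h y y.ne_zero (by
          have := congrArg Units.val hy
          rw [Units.val_pow_eq_pow_val, Units.val_one] at this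
          rw [show q = q - 1 + 1 by omega, pow_succ, this, one_mul]))
        have hbot : (powMonoidHom (q - 1) : Fˣ →* Fˣ).ker = ⊥ := eq_bot_iff.2 fun y hy =>
          Subgroup.mem_bot.2 (hsub y hy)
        have := IsCyclic.card_powMonoidHom_ker Fˣ (q - 1)
        rw [hbot, Subgroup.card_bot, card_units_sq hF, Nat.gcd_comm, Nat.gcd_mul_left_right] at this
        omega
      obtain ⟨d, hd, hdu, hdfix⟩ := plane_scalar hF hu0iso hv0iso hv0u hl hlq
      set y := (b / (l - 1)) • (Pi.single i 1 : Fin n → F) with hy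
      have hyu : H y u0 = 0 := by rw [hy, H_smul_left, hperp i hi, mul_zero]
      have hdy : d.1.1 *ᵥ y = y := hdfix y hyu (by
        rw [hy, H_smul_left, H_single_left, hv0]
        simp [hq0, hi0.symm, hi1.symm])
      obtain ⟨t, ht⟩ := exists_trace_one hF
      set c := -(H y y * t) with hc
      have hcond : c + c ^ q + H y y = 0 := by
        rw [hc, neg_pow_q hF, mul_pow, H_self_fixed hF]; linear_combination -(H y y) * ht
      obtain ⟨e, he⟩ := exists_elt hF hu0iso hyu hcond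
      refine ⟨d * e * d⁻¹ * e⁻¹, ?_, ?_⟩
      · rw [show d * e * d⁻¹ * e⁻¹ = d * (e * d⁻¹ * e⁻¹) by group]
        exact mul_mem hd ((tg_normal hF).conj_mem _ (inv_mem hd) e)
      · have hyy : H (-y) u0 = 0 := by rw [← neg_one_smul F y, H_smul_left, hyu, mul_zero]
        have hnn : H (-y) (-y) = H y y := by
          rw [← neg_one_smul F y, H_smul_left, H_smul_right, neg_pow_q hF, one_pow]; ring
        obtain ⟨e', he'⟩ := exists_elt hF (a := c ^ q) hu0iso hyy (by rw [hnn, pow_q_q hF]; linear_combination hcond)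
        have hinv : e⁻¹ = e' := by
          refine inv_eq_of_mul_eq_one_right (Subtype.ext (Subtype.ext ?_))
          show e.1.1 * e'.1.1 = 1
          rw [he, he', E_mul hF c (c ^ q) hu0iso hyu hyy, add_neg_cancel]
          refine Matrix.ext_iff_mulVec.2 fun x => ?_
          rw [E_mulVec, H_zero_right hF, Matrix.one_mulVec, ← neg_one_smul F y, H_smul_left,
            show c + c ^ q - -1 * H y y = 0 by linear_combination hcond]
          module
        have hconj : (d * e * d⁻¹).1.1 = E q u0 (l • y) (l * l * c) := by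
          refine Matrix.ext_iff_mulVec.2 fun x => ?_
          obtain ⟨x, rfl⟩ : ∃ z, d.1.1 *ᵥ z = x := ⟨(d⁻¹).1.1 *ᵥ x, by rw [← su_mulVec, mul_inv_cancel]; exact Matrix.one_mulVec x⟩
          rw [su_mulVec, su_mulVec, su_inv_cancel, he, E_conj hF, hdu, hdy, E_mulVec, E_mulVec]
          simp only [H_smul_right, hlq]
          module
        refine ⟨l * l * c + c ^ q - H (-y) (l • y), ?_, ?_⟩
        · show (d * e * d⁻¹).1.1 * (e⁻¹).1.1 = _
          rw [hconj, hinv, he', E_mul hF _ _ hu0iso (by rw [H_smul_left, hyu, mul_zero]) hyy]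
          congr 1
          rw [← neg_one_smul F y, ← add_smul, hy, smul_smul]
          congr 1
          field_simp [sub_ne_zero.2 hl1]
          ring
        · have hb : H (b • Pi.single i (1 : F)) (b • Pi.single i (1 : F)) = (l - 1) * (l - 1) * H y y := by
            rw [hy, H_smul_left, H_smul_right, H_smul_left, H_smul_right, div_pow, sub_pow_q hF, hlq, one_pow]
            field_simp [sub_ne_zero.2 hl1]
          rw [hb, ← neg_one_smul F y, H_smul_left, H_smul_right, hlq]
          simp only [sub_pow_q hF, add_pow_q hF, mul_pow, neg_pow_q hF, one_pow, pow_q_q hF, hlq, H_self_fixed hF]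
          linear_combination (l * l + 1) * hcond
  intro y hy
  have hy1 : y i1 = ζ * y i0 := by
    rw [hu0def, H_add_right hF, H_smul_right, H_single_right hq0, H_single_right hq0] at hy
    rw [pow_succ'] at hζ
    linear_combination (y i1) * hζ - ζ * hy
  have hdec : y = y i0 • u0 + ∑ i ∈ Finset.univ.filter (fun i : Fin n => 2 ≤ (i : ℕ)), y i • (Pi.single i 1 : Fin n → F) := by
    funext r
    simp only [Pi.add_apply, Pi.smul_apply, Finset.sum_apply, smul_eq_mul, hu0def]
    by_cases hr : 2 ≤ (r : ℕ)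
    · rw [Finset.sum_eq_single r (fun k _ hk => by simp [Pi.single_eq_of_ne hk.symm]) (fun h => absurd (by simpa using hr) h)]
      have : r ≠ i0 := by simp [i0, Fin.ext_iff]; omega
      have : r ≠ i1 := by simp [i1, Fin.ext_iff]; omega
      simp [*]
    · rw [Finset.sum_eq_zero fun k hk => by
        have : r ≠ k := fun h => hr (by simpa [h] using hk)
        simp [Pi.single_eq_of_ne this]]
      rcases (show (r : ℕ) = 0 ∨ (r : ℕ) = 1 by omega) with h | h
      · obtain rfl : r = i0 := Fin.ext h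
        simp [h01]
      · obtain rfl : r = i1 := Fin.ext h
        simp [h01.symm, hy1, mul_comm]
  rw [hdec]
  have hxu : H (y i0 • u0) u0 = 0 := by rw [H_smul_left, hu0iso, mul_zero]
  have hbase : Good q u0 (y i0 • u0) := good_iso hF hu0iso hxu (by rw [H_smul_left, H_smul_right, hu0iso, mul_zero, mul_zero])
  suffices hs : ∀ S : Finset (Fin n), (∀ i ∈ S, 2 ≤ (i : ℕ)) →
      Good q u0 (y i0 • u0 + ∑ i ∈ S, y i • (Pi.single i 1 : Fin n → F)) ∧
      H (y i0 • u0 + ∑ i ∈ S, y i • (Pi.single i 1 : Fin n → F)) u0 = 0 from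
    (hs _ fun i hi => (Finset.mem_filter.1 hi).2).1
  intro S
  induction S using Finset.induction with
  | empty => intro _; rw [Finset.sum_empty, add_zero]; exact ⟨hbase, hxu⟩
  | insert i S hiS ih =>
    intro hS
    obtain ⟨g1, g2⟩ := ih fun k hk => hS k (Finset.mem_insert_of_mem hk)
    have hi := hS i (Finset.mem_insert_self i S)
    have hperp : H (y i • (Pi.single i 1 : Fin n → F)) u0 = 0 := by
      have : i0 ≠ i := by simp [i0, Fin.ext_iff]; omega
      have : i1 ≠ i := by simp [i1, Fin.ext_iff]; omega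
      rw [H_smul_left, H_single_left, hu0def]
      simp [hq0, Ne.symm ‹i0 ≠ i›, Ne.symm ‹i1 ≠ i›]
    rw [Finset.sum_insert hiS, add_left_comm]
    exact ⟨good_add hF hu0iso hperp g2 (hsingle i hi (y i)) g1, by rw [H_add_left, hperp, g2, add_zero]⟩

/-- Every Siegel element is generated by transvections. -/
theorem siegel_mem (hF : Fintype.card F = q ^ 2) (hn : 4 ≤ n ∨ (n = 3 ∧ 3 ≤ q)) {u w : Fin n → F} {b : F} (hu0 : u ≠ 0)
    (hu : H u u = 0) (hwu : H w u = 0) (hb : b + b ^ q + H w w = 0) :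
    ∃ g ∈ TG n F q, g.1.1 = E q u w b := by
  obtain ⟨g, hg, a, hga, ha⟩ := good_all hF hn hu0 hu hwu
  obtain ⟨t, ht, htx⟩ := exists_tv hF hu (c := b - a) (by rw [sub_pow_q hF]; linear_combination hb - ha)
  refine ⟨t * g, mul_mem ht hg, Matrix.ext_iff_mulVec.2 fun x => ?_⟩
  rw [su_mulVec, hga, htx, E_mulVec, E_mulVec, H_add_left, H_add_left, H_smul_left, H_smul_left, hwu, hu]
  module

theorem su_preserves (hF : Fintype.card F = q ^ 2) {j : ℕ} {g : Cfsg.SU n F q}
    (hg : ∀ i : Fin n, (i : ℕ) < j → g.1.1 *ᵥ Pi.single i 1 = Pi.single i 1) {x : Fin n → F} (hx : InW j x) :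
    InW j (g.1.1 *ᵥ x) := fun i hi => by
  rw [← H_single_right (q_ne_zero hF) (g.1.1 *ᵥ x) i, ← hg i hi, SU_H, H_single_right (q_ne_zero hF)]
  exact hx i hi

/-- The base of the induction: the last two coordinates. -/
theorem mem_two (hF : Fintype.card F = q ^ 2) {j : ℕ} (hj : j + 2 = n) {g : Cfsg.SU n F q}
    (hg : ∀ i : Fin n, (i : ℕ) < j → g.1.1 *ᵥ Pi.single i 1 = Pi.single i 1) : g ∈ TG n F q := by
  classical
  have hq0 := q_ne_zero hF
  obtain ⟨ζ, η, hζ, hη, hne, hden⟩ := exists_zeta hF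
  have hζq : ζ * ζ ^ q = -1 := by rw [← pow_succ', hζ]
  let i0 : Fin n := ⟨j, by omega⟩
  let i1 : Fin n := ⟨j + 1, by omega⟩
  have h01 : i0 ≠ i1 := by simp [i0, i1, Fin.ext_iff]
  have hcase : ∀ r : Fin n, (r : ℕ) < j ∨ r = i0 ∨ r = i1 := fun r => by
    simp only [i0, i1, Fin.ext_iff]; omega
  have hext : ∀ {x y : Fin n → F}, InW j x → InW j y → x i0 = y i0 → x i1 = y i1 → x = y := fun {x y} hx hy h0 h1 => by
    funext r
    rcases hcase r with h | h | h
    · rw [hx r h, hy r h]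
    · rw [h]; exact h0
    · rw [h]; exact h1
  set u : Fin n → F := Pi.single i0 1 + ζ • Pi.single i1 1 with hu
  set a := (1 + η * ζ ^ q)⁻¹ with ha
  set v : Fin n → F := a • (Pi.single i0 1 + η • Pi.single i1 1) with hv
  have huW : InW j u := inW_add (single_inW (le_refl j)) (inW_smul _ (single_inW (Nat.le_succ j)))
  have hvW : InW j v := inW_smul _ (inW_add (single_inW (le_refl j)) (inW_smul _ (single_inW (Nat.le_succ j))))
  have huu : H u u = 0 := u0_iso hF h01 hζ
  have hvv : H v v = 0 := by rw [hv, H_smul_left, H_smul_right, u0_iso hF h01 hη, mul_zero, mul_zero]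
  have hvu : H v u = 1 := by
    rw [hv, hu]
    simp only [H_smul_left, H_smul_right, H_add_left, H_add_right hF, H_single_left, Pi.single_eq_same,
      Pi.single_eq_of_ne h01, Pi.single_eq_of_ne h01.symm, one_pow, zero_pow hq0]
    rw [ha]; linear_combination inv_mul_cancel₀ hden
  have hui0 : u i0 = 1 := by simp [hu, h01]
  have hui1 : u i1 = ζ := by simp [hu, h01.symm]
  have hHu : ∀ x, H x u = x i0 + ζ ^ q * x i1 := fun x => by
    rw [hu, H_add_right hF, H_smul_right, H_single_right hq0, H_single_right hq0]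
  -- Step 1 : fix `u`.
  obtain ⟨k, hk, hkf, hku⟩ : ∃ k ∈ TG n F q, (∀ i : Fin n, (i : ℕ) < j → k.1.1 *ᵥ Pi.single i 1 = Pi.single i 1) ∧
      k.1.1 *ᵥ u = g.1.1 *ᵥ u := by
    set p := g.1.1 *ᵥ Pi.single i0 1 with hp
    set r := g.1.1 *ᵥ Pi.single i1 1 with hr
    have hpW : InW j p := su_preserves hF hg (single_inW (le_refl j))
    have hrW : InW j r := su_preserves hF hg (single_inW (Nat.le_succ j))
    have hexp : ∀ {x y : Fin n → F}, InW j x → H x y = x i0 * y i0 ^ q + x i1 * y i1 ^ q := fun {x y} hx => by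
      rw [Cfsg.hermForm, ← Finset.sum_subset (Finset.subset_univ ({i0, i1} : Finset (Fin n))) (fun k _ hk => by
        simp only [Finset.mem_insert, Finset.mem_singleton, not_or] at hk
        rw [hx k ((hcase k).resolve_right (not_or.2 hk)), zero_mul]), Finset.sum_pair h01]
    have hpp : p i0 * p i0 ^ q + p i1 * p i1 ^ q = 1 := by
      rw [← hexp hpW, hp, SU_H, H_single_left, Pi.single_eq_same, one_pow]
    have hrp : r i0 * p i0 ^ q + r i1 * p i1 ^ q = 0 := by
      rw [← hexp hrW, hp, hr, SU_H, H_single_left, Pi.single_eq_of_ne h01.symm, zero_pow hq0]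
    have hdet : p i0 * r i1 - r i0 * p i1 = 1 := by
      have hdiv : g.1.1 = 1 + (Matrix.of fun s (c : Fin 2) => ![p s - (Pi.single i0 (1 : F) : Fin n → F) s,
          r s - (Pi.single i1 (1 : F) : Fin n → F) s] c) *
          (Matrix.of fun (c : Fin 2) s => ![(Pi.single i0 (1 : F) : Fin n → F) s, (Pi.single i1 (1 : F) : Fin n → F) s] c) := by
        refine Matrix.ext_of_mulVec_single fun t => ?_
        funext s
        rw [Matrix.mulVec_single_one, Matrix.mulVec_single_one]
        show g.1.1 s t = _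
        have hgs : g.1.1 s t = (g.1.1 *ᵥ Pi.single t 1) s := by rw [Matrix.mulVec_single_one]; rfl
        rw [hgs]
        simp only [Matrix.col_apply, Matrix.add_apply, Matrix.mul_apply, Matrix.one_apply, Matrix.of_apply, Fin.sum_univ_two,
          Matrix.cons_val_zero, Matrix.cons_val_one, Pi.single_apply]
        rcases hcase t with h | h | h
        · have e0 : t ≠ i0 := fun e => by rw [e] at h; simp [i0] at h
          have e1 : t ≠ i1 := fun e => by rw [e] at h; simp [i1] at h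
          rw [hg t h]; simp [e0, e1, Pi.single_apply]
        · subst h; rw [← hp]; simp [h01]
        · subst h; rw [← hr]; simp [h01.symm]
      have := congrArg Matrix.det hdiv
      rw [g.1.2, Matrix.det_one_add_mul_comm, Matrix.det_fin_two] at this
      simp [Matrix.mul_apply, Matrix.one_apply, Pi.single_apply, h01, h01.symm] at this
      linear_combination -this
    have hpp' : p i0 ^ q * r i0 + p i1 ^ q * r i1 = 0 := by linear_combination hrp
    have hd : r i1 = p i0 ^ q := by linear_combination (-r i1) * hpp + p i0 ^ q * hdet + p i1 * hpp'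
    have hb : r i0 = -p i1 ^ q := by linear_combination (-r i0) * hpp + p i0 * hpp' - p i1 ^ q * hdet
    have hgu : g.1.1 *ᵥ u = p + ζ • r := by rw [hu, Matrix.mulVec_add, Matrix.mulVec_smul]
    have hgW : InW j (g.1.1 *ᵥ u) := su_preserves hF hg huW
    have hgg : H (g.1.1 *ᵥ u) (g.1.1 *ᵥ u) = 0 := by rw [SU_H]; exact huu
    have hb' : r i0 ^ q = -p i1 := by rw [hb, neg_pow_q hF, pow_q_q hF]
    have hd' : r i1 ^ q = p i0 := by rw [hd, pow_q_q hF]
    have hanti : (H u (g.1.1 *ᵥ u)) ^ q = -H u (g.1.1 *ᵥ u) := by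
      rw [← H_conj hF, pow_q_q hF, H_conj hF, hexp huW, hgu]
      have e : H (g.1.1 *ᵥ u) u = p i0 + ζ * r i0 + ζ ^ q * (p i1 + ζ * r i1) := by rw [hHu, hgu]; simp
      rw [hgu] at e
      rw [e]
      simp only [hu, Pi.add_apply, Pi.smul_apply, smul_eq_mul, Pi.single_eq_same, Pi.single_eq_of_ne h01,
        Pi.single_eq_of_ne h01.symm, mul_zero, mul_one, add_zero, zero_add, one_mul, add_pow_q hF, mul_pow]
      rw [hb', hd', hb, hd]
      linear_combination (p i0 ^ q + p i0) * hζq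
    by_cases h0 : H u (g.1.1 *ᵥ u) = 0
    · set x := (g.1.1 *ᵥ u) i0 with hx
      have hy : (g.1.1 *ᵥ u) i1 = ζ * x := by
        have h := congrArg (· ^ q) h0
        simp only [H_conj hF, zero_pow hq0, hHu] at h
        linear_combination (g.1.1 *ᵥ u) i1 * hζq - ζ * h
      have hgx : g.1.1 *ᵥ u = x • u := hext hgW (inW_smul x huW)
        (by rw [Pi.smul_apply, smul_eq_mul, hui0, mul_one])
        (by rw [Pi.smul_apply, smul_eq_mul, hui1, hy, mul_comm])
      have hx0 : x ≠ 0 := fun h => by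
        have h1 := congrArg (fun y => (g⁻¹).1.1 *ᵥ y) hgx
        simp only [su_inv_cancel, h, zero_smul, Matrix.mulVec_zero] at h1
        exact u0_ne h01 ζ h1
      have hxq : x ^ q = x := by
        have hx' : x = p i0 + ζ * r i0 := by rw [hx, hgu]; simp
        have hy' : ζ * x = p i1 + ζ * r i1 := by rw [← hy, hgu]; simp
        have hζ0 : ζ ≠ 0 := fun h => by simp [h, hq0] at hζq
        refine mul_left_cancel₀ hζ0 ?_
        rw [hy', hx', add_pow_q hF, mul_pow, hb', hd]
        linear_combination (-p i1) * hζq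
      obtain ⟨k, hk, hku, hkf⟩ := plane_scalar hF huu hvv hvu hx0 hxq
      refine ⟨k, hk, fun i hi => hkf _ ?_ ?_, by rw [hku, hgx]⟩
      · rw [H_single_left, huW i hi, zero_pow hq0]
      · rw [H_single_left, hvW i hi, zero_pow hq0]
    · obtain ⟨k, hk, hku, hkf⟩ := step' hF huu hgg h0 hanti
      refine ⟨k, hk, fun i hi => hkf _ ?_, hku⟩
      rw [H_single_left, H_single_left, huW i hi, hgW i hi]
  -- Step 2 : fix `v`.
  set g' := k⁻¹ * g with hg'
  have hg'u : g'.1.1 *ᵥ u = u := by rw [hg', su_mulVec, ← hku, su_inv_cancel]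
  have hg'f : ∀ i : Fin n, (i : ℕ) < j → g'.1.1 *ᵥ Pi.single i 1 = Pi.single i 1 := fun i hi => by
    rw [hg', su_mulVec, hg i hi]; conv_lhs => rw [← hkf i hi]
    rw [su_inv_cancel]
  set p := g'.1.1 *ᵥ v with hp
  set α := H p v with hα
  have hpu : H p u = 1 := by rw [hp, ← hg'u, SU_H]; exact hvu
  have hpp : H p p = 0 := by rw [hp, SU_H, hvv]
  have huv : H u v = 1 := by rw [← H_conj hF, hvu, one_pow]
  have hw : p = v + α • u := by
    have hW : InW j (p - v - α • u) := inW_sub (inW_sub (su_preserves hF hg'f hvW) hvW) (inW_smul α huW)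
    have h1 : H (p - v - α • u) u = 0 := by rw [H_sub_left, H_sub_left, hvu, hpu, H_smul_left α u u, huu]; ring
    have h2 : H (p - v - α • u) v = 0 := by rw [H_sub_left, H_sub_left, hvv, H_smul_left α u v, huv, hα]; ring
    rw [hHu] at h1
    rw [hv, H_smul_right, H_add_right hF, H_smul_right, H_single_right hq0, H_single_right hq0] at h2
    have ha0 : a ^ q ≠ 0 := pow_ne_zero _ (inv_ne_zero hden)
    have h3 := (mul_eq_zero.1 h2).resolve_left ha0
    have h4 : (ζ ^ q - η ^ q) * (p - v - α • u) i1 = 0 := by rw [hv]; linear_combination h1 - h3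
    have h5 : (ζ ^ q - η ^ q) ≠ 0 := fun e => hne (by
      rw [← pow_q_q hF ζ, sub_eq_zero.1 e, pow_q_q hF])
    have e1 := (mul_eq_zero.1 h4).resolve_left h5
    have e0 : (p - v - α • u) i0 = 0 := by rw [hv] at e1 ⊢; linear_combination h1 - ζ ^ q * e1
    have := hext hW (y := 0) (fun _ _ => rfl) e0 e1
    rw [← sub_eq_zero, ← this]; abel
  have hαq : α ^ q = -α := by
    rw [hw] at hpp
    simp only [H_add_left, H_add_right hF, H_smul_left, H_smul_right, hvv, huu, huv, hvu] at hpp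
    linear_combination hpp
  obtain ⟨t, ht, htx⟩ := exists_tv hF huu hαq
  have hfix : ∀ i, (t⁻¹ * g').1.1 *ᵥ Pi.single i 1 = Pi.single i 1 := by
    have hsu : (t⁻¹ * g').1.1 *ᵥ u = u := by
      rw [su_mulVec, hg'u]
      conv_lhs => rw [show u = t.1.1 *ᵥ u by rw [htx, huu, mul_zero, zero_smul, add_zero]]
      rw [su_inv_cancel]
    have hsv : (t⁻¹ * g').1.1 *ᵥ v = v := by
      rw [su_mulVec, ← hp, hw]
      conv_lhs => rw [show v + α • u = t.1.1 *ᵥ v by rw [htx, hvu, mul_one]]
      rw [su_inv_cancel]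
    intro i
    rcases hcase i with h | h | h
    · rw [su_mulVec, hg'f i h]
      conv_lhs => rw [show (Pi.single i 1 : Fin n → F) = t.1.1 *ᵥ Pi.single i 1 by
        rw [htx, H_single_left, huW i h, zero_pow hq0, mul_zero, zero_smul, add_zero]]
      rw [su_inv_cancel]
    all_goals subst h
    · have e : (Pi.single i0 1 : Fin n → F) = (η / (η - ζ)) • u - ((ζ / (η - ζ)) * (1 + η * ζ ^ q)) • v := by
        rw [hu, hv, smul_smul, ha, mul_assoc, mul_inv_cancel₀ hden, mul_one]
        funext r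
        simp only [Pi.sub_apply, Pi.smul_apply, Pi.add_apply, smul_eq_mul]
        field_simp [sub_ne_zero.2 (Ne.symm hne)]
        ring
      rw [e, Matrix.mulVec_sub, Matrix.mulVec_smul _ _ u, Matrix.mulVec_smul _ _ v, hsu, hsv]
    · have e : (Pi.single i1 1 : Fin n → F) = ((1 / (η - ζ)) * (1 + η * ζ ^ q)) • v - (1 / (η - ζ)) • u := by
        rw [hu, hv, smul_smul, ha, mul_assoc, mul_inv_cancel₀ hden, mul_one]
        funext r
        simp only [Pi.sub_apply, Pi.smul_apply, Pi.add_apply, smul_eq_mul]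
        field_simp [sub_ne_zero.2 (Ne.symm hne)]
        ring
      rw [e, Matrix.mulVec_sub, Matrix.mulVec_smul _ _ u, Matrix.mulVec_smul _ _ v, hsu, hsv]
  have h1 : t⁻¹ * g' = 1 := Subtype.ext (Subtype.ext (Matrix.ext_of_mulVec_single fun i => by
    rw [hfix i]; exact (Matrix.one_mulVec _).symm))
  rw [show g = k * t * (t⁻¹ * g') by rw [hg']; group, h1, mul_one]
  exact mul_mem hk ht

theorem mem_of_fix (hF : Fintype.card F = q ^ 2) (hn : 4 ≤ n ∨ (n = 3 ∧ 3 ≤ q)) :
    ∀ k j : ℕ, j + 2 + k = n → ∀ g : Cfsg.SU n F q,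
      (∀ i : Fin n, (i : ℕ) < j → g.1.1 *ᵥ Pi.single i 1 = Pi.single i 1) → g ∈ TG n F q := by
  classical
  have hq0 := q_ne_zero hF
  intro k
  induction k with
  | zero => intro j hj g hg; exact mem_two hF (by omega) hg
  | succ k ih =>
    intro j hj g hg
    obtain ⟨ζ, hζ⟩ := exists_norm hF (c := (-1 : F)) (by simp) (by rw [neg_pow_q hF, one_pow])
    let i0 : Fin n := ⟨j, by omega⟩
    let i1 : Fin n := ⟨j + 1, by omega⟩
    have h01 : i0 ≠ i1 := by simp [i0, i1, Fin.ext_iff]
    set u : Fin n → F := Pi.single i0 1 + ζ • Pi.single i1 1 with hu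
    have huW : InW j u := inW_add (single_inW (le_refl j)) (inW_smul _ (single_inW (Nat.le_succ j)))
    have huu : H u u = 0 := u0_iso hF h01 hζ
    have hgW : InW j (g.1.1 *ᵥ u) := su_preserves hF hg huW
    have hgne : g.1.1 *ᵥ u ≠ 0 := fun h => by
      have := congrArg (fun y => (g⁻¹).1.1 *ᵥ y) h
      simp only [su_inv_cancel, Matrix.mulVec_zero] at this
      exact u0_ne h01 ζ this
    obtain ⟨t, ⟨ht, htf⟩, htu⟩ := transitive_TW hF (by omega) hgW huW hgne (u0_ne h01 ζ) (by rw [SU_H]; exact huu) huu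
    set g' := t * g with hg'
    have hg'u : g'.1.1 *ᵥ u = u := by rw [hg', su_mulVec, htu]
    have hg'f : ∀ i : Fin n, (i : ℕ) < j → g'.1.1 *ᵥ Pi.single i 1 = Pi.single i 1 := fun i hi => by
      rw [hg', su_mulVec, hg i hi, htf i hi]
    obtain ⟨v, -, hvW, -, hvv, hvu, -, -, -⟩ := exists_frame hF (j := j) (by omega) huW (u0_ne h01 ζ) huu
    have huv : H u v = 1 := by rw [← H_conj hF, hvu, one_pow]
    set p := g'.1.1 *ᵥ v with hp
    set α := H p v with hα
    set w := p - v - α • u with hw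
    have hwW : InW j w := inW_sub (inW_sub (su_preserves hF hg'f hvW) hvW) (inW_smul α huW)
    have hpu : H p u = 1 := by rw [hp, ← hg'u, SU_H]; exact hvu
    have hpp : H p p = 0 := by rw [hp, SU_H, hvv]
    have hwu : H w u = 0 := by rw [hw, H_sub_left, H_sub_left, H_smul_left, hpu, hvu, huu]; ring
    have hwv : H w v = 0 := by rw [hw, H_sub_left, H_sub_left, H_smul_left, hvv, huv, hα]; ring
    have huw : H u w = 0 := by rw [← H_conj hF, hwu, zero_pow hq0]
    have hvw : H v w = 0 := by rw [← H_conj hF, hwv, zero_pow hq0]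
    have hpe : p = v + w + α • u := by rw [hw]; abel
    have hcond : α + α ^ q + H w w = 0 := by
      rw [hpe] at hpp
      simp only [H_add_left, H_add_right hF, H_smul_left, H_smul_right, hvv, huu, huv, hvu, hwu, hwv, huw, hvw] at hpp
      linear_combination hpp
    obtain ⟨s, hs, hse⟩ := siegel_mem hF hn (u0_ne h01 ζ) huu hwu hcond
    set g'' := s⁻¹ * g' with hg''
    have hfix : ∀ x, g'.1.1 *ᵥ x = E q u w α *ᵥ x → g''.1.1 *ᵥ x = x := fun x h => by
      rw [hg'', su_mulVec, h, ← hse, su_inv_cancel]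
    have h1u : g''.1.1 *ᵥ u = u := hfix u (by rw [hg'u, E_mulVec, huu, huw]; simp)
    have h1v : g''.1.1 *ᵥ v = v := hfix v (by rw [← hp, hpe, E_mulVec, hvu, hvw]; simp)
    have h1f : ∀ i : Fin n, (i : ℕ) < j → g''.1.1 *ᵥ Pi.single i 1 = Pi.single i 1 := fun i hi => hfix _ (by
      rw [hg'f i hi, E_mulVec, H_single_left, H_single_left, huW i hi, hwW i hi]; simp [hq0])
    obtain ⟨c, hc⟩ := exists_trace_one hF
    set e : Fin n → F := c • u + v with he
    have hee : H e e = 1 := by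
      simp only [he, H_add_left, H_add_right hF, H_smul_left, H_smul_right, huu, hvv, huv, hvu]
      linear_combination hc
    obtain ⟨h0, h0f, h0e⟩ := trans_norm_one (n := n) hF (j := j) (u := e) (v := Pi.single i0 1)
      (inW_add (inW_smul c huW) hvW) (single_inW (le_refl j)) hee (by rw [H_single_left, Pi.single_eq_same, one_pow])
    set D := h0.1.1.det with hD
    let d : Fin n → F := Pi.mulSingle i1 D⁻¹
    have hd : ∀ i, d i ^ (q + 1) = 1 := fun i => by
      simp only [d, Pi.mulSingle_apply]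
      split_ifs
      · rw [inv_pow, hD, det_norm hF, inv_one]
      · exact one_pow _
    let h : Cfsg.SU n F q := ⟨⟨(mkGU hF (Matrix.diagonal d) (diag_preserves hF d hd) * h0).1.1, by
      show (Matrix.diagonal d * h0.1.1).det = 1
      rw [Matrix.det_mul, Matrix.det_diagonal, Finset.prod_pi_mulSingle', if_pos (Finset.mem_univ _), ← hD,
        inv_mul_cancel₀ (fun h => by
          have := det_norm hF h0
          rw [← hD, h, zero_pow (by omega)] at this
          exact zero_ne_one this)]⟩, (mkGU hF (Matrix.diagonal d) (diag_preserves hF d hd) * h0).2⟩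
    have hdfix : ∀ i : Fin n, i ≠ i1 → Matrix.diagonal d *ᵥ (Pi.single i 1 : Fin n → F) = Pi.single i 1 := fun i hi => by
      funext r
      rw [Matrix.mulVec_diagonal]
      by_cases hr : r = i
      · subst hr; simp [d, Pi.mulSingle_eq_of_ne hi]
      · simp [Pi.single_eq_of_ne hr]
    have hhe : h.1.1 *ᵥ e = Pi.single i0 1 := by
      show (Matrix.diagonal d * h0.1.1) *ᵥ e = _
      rw [← Matrix.mulVec_mulVec, h0e, hdfix i0 h01]
    have hhf : ∀ i : Fin n, (i : ℕ) < j → h.1.1 *ᵥ Pi.single i 1 = Pi.single i 1 := fun i hi => by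
      show (Matrix.diagonal d * h0.1.1) *ᵥ _ = _
      rw [← Matrix.mulVec_mulVec, h0f i hi, hdfix i (fun e => by rw [e] at hi; simp [i1] at hi)]
    have hT : h * g'' * h⁻¹ ∈ TG n F q := by
      refine ih (j + 1) (by omega) _ fun i hi => ?_
      have back : ∀ x, g''.1.1 *ᵥ x = x → (h * g'' * h⁻¹).1.1 *ᵥ (h.1.1 *ᵥ x) = h.1.1 *ᵥ x := fun x hx => by
        rw [su_mulVec, su_mulVec, su_inv_cancel, hx]
      rcases lt_or_eq_of_le (Nat.le_of_lt_succ hi) with hlt | heq
      · rw [← hhf i hlt]; exact back _ (h1f i hlt)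
      · rw [show i = i0 from Fin.ext heq, ← hhe]
        exact back e (by rw [he, Matrix.mulVec_add, Matrix.mulVec_smul, h1u, h1v])
    have hg''T := mem_of_conj hF hT
    rw [show g = t⁻¹ * (s * g'') by rw [hg'', hg']; group]
    exact mul_mem (inv_mem ht) (mul_mem hs hg''T)

/-- SU is generated by transvections. -/
theorem closure_eq_top (hF : Fintype.card F = q ^ 2) (hn : 4 ≤ n ∨ (n = 3 ∧ 3 ≤ q)) : TG n F q = ⊤ :=
  eq_top_iff.2 fun g _ => mem_of_fix hF hn (n - 2) 0 (by omega) g fun i hi => absurd hi (Nat.not_lt_zero _)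

end CfsgLib.Unitary.GenerationMain
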