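import Mathlib
import Cfsg.Prelude.Def_Classical
import Cfsg.Agent.Lib.Unitary.FieldNorm

/-!
`SL₂` over the subfield inside `SU₂`.
-/

set_option autoImplicit false
open Matrix

namespace CfsgLib.Unitary.TwoSubfield

open CfsgLib.Unitary.FieldNorm

variable {F K : Type*} [Field F] [Fintype F] [Field K] [Fintype K] {q : ℕ}

theorem exists_ringHom (hF : Fintype.card F = q ^ 2) (hK : Fintype.card K = q) :
    Nonempty (K →+* F) := by
  obtain ⟨p, k, hp, hchar, hqk, hk⟩ := exists_char hF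
  haveI := Fact.mk hp
  haveI : CharP K p := by
    obtain ⟨p', _⟩ := CharP.exists K
    obtain ⟨n, hp', hn⟩ := FiniteField.card K p'
    have hdvd : p' ∣ p ^ k := by rw [← hqk, ← hK, hn]; exact dvd_pow_self p' n.ne_zero
    rwa [← (Nat.prime_dvd_prime_iff_eq hp' hp).1 (hp'.dvd_of_dvd_pow hdvd)]
  letI := ZMod.algebra K p
  letI := ZMod.algebra F p
  have h1 : Module.finrank (ZMod p) K = k := by
    apply Nat.pow_right_injective hp.two_le
    simp only
    rw [FiniteField.pow_finrank_eq_card p K, hK, hqk]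
  have h2 : Module.finrank (ZMod p) F = k * 2 := by
    apply Nat.pow_right_injective hp.two_le
    simp only
    rw [FiniteField.pow_finrank_eq_card p F, hF, hqk, pow_mul]
  obtain ⟨f⟩ := FiniteField.nonempty_algHom_of_finrank_dvd (F := ZMod p) (K := K) (L := F)
    (by rw [h1, h2]; exact dvd_mul_right k 2)
  exact ⟨f.toRingHom⟩

theorem exists_skew (hF : Fintype.card F = q ^ 2) : ∃ δ : F, δ ≠ 0 ∧ δ ^ q = -δ := by
  have h2 := two_le_q hF
  obtain ⟨t, ht, -, ht2⟩ := exists_unit_ne_one hF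
  refine ⟨t - t ^ q, ?_, ?_⟩
  · intro h
    rw [sub_eq_zero] at h
    refine ht2 ?_
    have h1 : t ^ q * t = 1 := by rw [← pow_succ, ht]
    rw [← h] at h1
    rw [pow_two, h1]
  · rw [sub_pow_q hF, pow_q_q hF]
    ring

theorem exists_two_norm_neg_one (hF : Fintype.card F = q ^ 2) :
    ∃ c d : F, c ≠ d ∧ c ^ (q + 1) = -1 ∧ d ^ (q + 1) = -1 := by
  classical
  have hq := two_le_q hF
  have hc : Nat.card {x : F // x ^ (q + 1) = -1} = q + 1 :=
    card_norm_fiber hF (neg_ne_zero.2 one_ne_zero) (by rw [neg_pow_q hF, one_pow])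
  rw [Nat.card_eq_fintype_card] at hc
  obtain ⟨x, y, hxy⟩ := Fintype.exists_pair_of_one_lt_card
    (α := {x : F // x ^ (q + 1) = -1}) (by omega)
  exact ⟨x.1, y.1, fun h => hxy (Subtype.ext h), x.2, y.2⟩

theorem exists_hom (hF : Fintype.card F = q ^ 2) (hK : Fintype.card K = q) :
    ∃ f : Matrix.SpecialLinearGroup (Fin 2) K →* Cfsg.SU 2 F q, Function.Injective f := by
  classical
  obtain ⟨φ⟩ := exists_ringHom hF hK
  have hfix : ∀ x : K, φ x ^ q = φ x := fun x => by
    rw [← map_pow, ← hK, FiniteField.pow_card]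
  obtain ⟨δ, hδ0, hδ⟩ := exists_skew hF
  obtain ⟨c, d, hcd, hc, hd⟩ := exists_two_norm_neg_one hF
  have hq := two_le_q hF
  have hcd' : 1 + c * d ^ q ≠ 0 := fun h => hcd (by
    have h1 : c * d ^ (q + 1) = -d := by
      rw [pow_succ, ← mul_assoc, eq_neg_of_add_eq_zero_right h]
      ring
    rw [hd] at h1
    linear_combination -h1)
  -- `z` with `z ^ q * (1 + c * d ^ q) = δ`
  obtain ⟨z, hz⟩ : ∃ z : F, z ^ q * (1 + c * d ^ q) = δ :=
    ⟨(δ / (1 + c * d ^ q)) ^ q, by rw [pow_q_q hF, div_mul_cancel₀ _ hcd']⟩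
  have hz0 : z ≠ 0 := by
    rintro rfl
    rw [zero_pow (by omega), zero_mul] at hz
    exact hδ0 hz.symm
  set P : Matrix (Fin 2) (Fin 2) F := !![1, z; c, z * d] with hPdef
  have hP : P.det ≠ 0 := by
    rw [hPdef, Matrix.det_fin_two_of]
    intro h
    have : z * (d - c) = 0 := by linear_combination h
    rcases mul_eq_zero.1 this with h | h
    · exact hz0 h
    · exact hcd (sub_eq_zero.1 h).symm
  -- the form in the new basis
  have hform : ∀ x y : Fin 2 → F, Cfsg.hermForm 2 F q (P *ᵥ x) (P *ᵥ y)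
      = δ * (x 0 * y 1 ^ q - x 1 * y 0 ^ q) := by
    intro x y
    have e2 : (1 + d * c ^ q) * z = -δ := by
      have := congrArg (fun w => w ^ q) hz
      simp only [mul_pow, add_pow_q hF, one_pow, pow_q_q hF, hδ] at this
      linear_combination this
    have e0 : 1 + c * c ^ q = 0 := by rw [← pow_succ', hc]; ring
    have e1 : 1 + d * d ^ q = 0 := by rw [← pow_succ', hd]; ring
    simp only [Cfsg.hermForm, Fin.sum_univ_two, hPdef, Matrix.mulVec, dotProduct, Matrix.of_apply,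
      Matrix.cons_val_zero, Matrix.cons_val_one, add_pow_q hF, mul_pow, one_pow]
    linear_combination (x 0 * y 0 ^ q) * e0 + (x 0 * y 1 ^ q) * hz + (x 1 * y 0 ^ q) * e2
      + (x 1 * y 1 ^ q * z * z ^ q) * e1
  have hinv : P * P⁻¹ = 1 := Matrix.mul_nonsing_inv P (Ne.isUnit hP)
  have hinv' : P⁻¹ * P = 1 := Matrix.nonsing_inv_mul P (Ne.isUnit hP)
  have hdet : ∀ A : Matrix.SpecialLinearGroup (Fin 2) K,
      (P * A.1.map φ * P⁻¹).det = 1 := fun A => by
    rw [Matrix.det_mul, Matrix.det_mul, mul_right_comm, ← Matrix.det_mul, hinv, Matrix.det_one,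
      one_mul, ← RingHom.mapMatrix_apply, ← RingHom.map_det, A.2, map_one]
  let g : Matrix.SpecialLinearGroup (Fin 2) K →* Matrix.SpecialLinearGroup (Fin 2) F :=
    { toFun := fun A => ⟨P * A.1.map φ * P⁻¹, hdet A⟩
      map_one' := Subtype.ext (by
        change P * (1 : Matrix (Fin 2) (Fin 2) K).map φ * P⁻¹ = 1
        rw [Matrix.map_one φ (map_zero φ) (map_one φ), mul_one, hinv])
      map_mul' := fun A B => Subtype.ext (by
        change P * (A.1 * B.1).map φ * P⁻¹ = (P * A.1.map φ * P⁻¹) * (P * B.1.map φ * P⁻¹)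
        rw [Matrix.map_mul]
        simp only [mul_assoc]
        rw [← mul_assoc P⁻¹ P, hinv', one_mul]) }
  have hmem : ∀ A, g A ∈ Cfsg.SU 2 F q := by
    intro A u v
    have hu : ∀ w : Fin 2 → F, w = P *ᵥ (P⁻¹ *ᵥ w) := fun w => by
      rw [Matrix.mulVec_mulVec, hinv, Matrix.one_mulVec]
    change Cfsg.hermForm 2 F q ((P * A.1.map φ * P⁻¹) *ᵥ u) ((P * A.1.map φ * P⁻¹) *ᵥ v) = _
    conv_rhs => rw [hu u, hu v, hform]
    rw [← Matrix.mulVec_mulVec, ← Matrix.mulVec_mulVec, ← Matrix.mulVec_mulVec,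
      ← Matrix.mulVec_mulVec, hform]
    have hdetA : φ (A.1 0 0) * φ (A.1 1 1) - φ (A.1 0 1) * φ (A.1 1 0) = 1 := by
      rw [← map_mul, ← map_mul, ← map_sub, ← Matrix.det_fin_two, A.2, map_one]
    generalize P⁻¹ *ᵥ u = x
    generalize P⁻¹ *ᵥ v = y
    simp only [Matrix.mulVec, dotProduct, Fin.sum_univ_two, Matrix.map_apply, add_pow_q hF,
      mul_pow, hfix]
    linear_combination (δ * (x 0 * y 1 ^ q - x 1 * y 0 ^ q)) * hdetA
  refine ⟨g.codRestrict _ hmem, fun A B h => Subtype.ext ?_⟩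
  have h' : P * A.1.map φ * P⁻¹ = P * B.1.map φ * P⁻¹ := congrArg (fun w => w.1.1) h
  have := congrArg (fun M => P⁻¹ * M * P) h'
  simp only [mul_assoc, hinv', mul_one] at this
  rw [← mul_assoc, hinv', one_mul, ← mul_assoc, hinv', one_mul] at this
  exact Matrix.map_injective φ.injective this

end CfsgLib.Unitary.TwoSubfield
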