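import Mathlib
import Cfsg.Agent.Lib.Unitary.GenerationMain
import Cfsg.Agent.S2644
import Cfsg.Agent.S0781

/-!
Normal subgroups of SU_n: central or everything.
-/

set_option autoImplicit false
open scoped Matrix commutatorElement

namespace CfsgLib.Unitary.Simple

open CfsgLib.Unitary.FieldNorm CfsgLib.Unitary.Basic CfsgLib.Unitary.Order CfsgLib.Unitary.Isotropic CfsgLib.Unitary.Siegel
open CfsgLib.Unitary.Generation CfsgLib.Unitary.GenerationMain

variable {F : Type*} [Field F] [Fintype F] {q n : ℕ}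

local notation "H" => Cfsg.hermForm n F q

omit [Fintype F] in
theorem su_cancel (a : Cfsg.SU n F q) (x : Fin n → F) : a.1.1 *ᵥ ((a⁻¹).1.1 *ᵥ x) = x := by
  rw [← su_mulVec, mul_inv_cancel]; exact Matrix.one_mulVec x

theorem tv_ne_one {u : Fin n → F} {c : F} (hF : Fintype.card F = q ^ 2) (hu : u ≠ 0) (hc : c ≠ 0) {g : Cfsg.SU n F q}
    (hg : ∀ x, g.1.1 *ᵥ x = x + (c * H x u) • u) : g ≠ 1 := by
  rintro rfl
  obtain ⟨x, hx⟩ : ∃ x, H x u ≠ 0 := by
    by_contra h; simp only [not_exists, not_not] at h; exact hu (vec_eq_zero hF h)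
  have := hg x
  rw [OneMemClass.coe_one, Matrix.SpecialLinearGroup.coe_one, Matrix.one_mulVec, left_eq_add] at this
  exact (mul_ne_zero hc hx) ((smul_eq_zero.1 this).resolve_right hu)

theorem tv_isTransvection {u : Fin n → F} {c : F} (hF : Fintype.card F = q ^ 2) (hu : u ≠ 0) (hiu : H u u = 0)
    {g : Cfsg.SU n F q} (hg : ∀ x, g.1.1 *ᵥ x = x + (c * H x u) • u) (hc : c ≠ 0) : Cfsg.IsTransvection g.1.1 := by
  have hN : ∀ x, (g.1.1 - 1) *ᵥ x = (c * H x u) • u := fun x => by
    rw [Matrix.sub_mulVec, Matrix.one_mulVec, hg, add_sub_cancel_left]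
  constructor
  · refine le_antisymm ?_ (Nat.one_le_iff_ne_zero.2 fun h0 => tv_ne_one hF hu hc hg (Subtype.ext (Subtype.ext ?_)))
    · have hle : LinearMap.range (g.1.1 - 1).mulVecLin ≤ F ∙ u := by
        rintro _ ⟨x, rfl⟩
        rw [Matrix.mulVecLin_apply, hN]
        exact Submodule.smul_mem _ _ (Submodule.mem_span_singleton_self u)
      exact (Submodule.finrank_mono hle).trans ((finrank_span_le_card ({u} : Set (Fin n → F))).trans (by simp))
    · refine sub_eq_zero.1 (Matrix.ext_iff_mulVec.2 fun x => ?_)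
      have hbot : LinearMap.range (g.1.1 - 1).mulVecLin = ⊥ := Submodule.finrank_eq_zero.1 h0
      have := LinearMap.congr_fun (LinearMap.range_eq_bot.1 hbot) x
      rw [Matrix.mulVecLin_apply] at this
      rw [Matrix.zero_mulVec]; exact this
  · refine Matrix.ext_iff_mulVec.2 fun x => ?_
    rw [← Matrix.mulVec_mulVec, hN ((g.1.1 - 1) *ᵥ x), hN x, H_smul_left, hiu, mul_zero, mul_zero, zero_smul, Matrix.zero_mulVec]

/-- A normal subgroup containing a transvection is everything. -/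
theorem top_of_tv (hF : Fintype.card F = q ^ 2) (hn : 4 ≤ n ∨ (n = 3 ∧ 3 ≤ q)) (N : Subgroup (Cfsg.SU n F q)) [hN : N.Normal]
    {g : Cfsg.SU n F q} (hgN : g ∈ N) (hg : Cfsg.IsTransvection g.1.1) : N = ⊤ := by
  rw [eq_top_iff, ← closure_eq_top hF hn]
  refine (Subgroup.closure_le _).2 ?_
  rintro t ⟨v, c, hv, ht⟩
  have htx : ∀ x, t.1.1 *ᵥ x = x + (c * H x v) • v := fun x => by rw [ht, umat_mulVec]
  by_cases h1 : t = 1
  · rw [h1]; exact one_mem _
  have hv0 : v ≠ 0 := by
    rintro rfl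
    exact h1 (Subtype.ext (Subtype.ext (Matrix.ext_iff_mulVec.2 fun x => by rw [htx, smul_zero, add_zero]; simp)))
  have hc : c ≠ 0 := by
    rintro rfl
    exact h1 (Subtype.ext (Subtype.ext (Matrix.ext_iff_mulVec.2 fun x => by rw [htx, zero_mul, zero_smul, add_zero]; simp)))
  obtain ⟨k, rfl⟩ := isConj_iff.1 (Cfsg.Agent.S2644.result hF (by omega) g t hg (tv_isTransvection hF hv0 hv htx hc))
  exact hN.conj_mem g hgN k

/-- The stabiliser of a point moves a partner to any other. -/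
theorem stab_move (hF : Fintype.card F = q ^ 2) {u b d : Fin n → F} (hu : H u u = 0) (hb : H b b = 0) (hd : H d d = 0)
    (hbu : H b u = 1) (hdu : H d u = 1) : ∃ s : Cfsg.SU n F q, s.1.1 *ᵥ u = u ∧ s.1.1 *ᵥ b = d := by
  have hq0 := q_ne_zero hF
  have hub : H u b = 1 := by rw [← H_conj hF, hbu, one_pow]
  set α := H d b with hα
  set w := d - b - α • u with hw
  have hwu : H w u = 0 := by rw [hw, H_sub_left, H_sub_left, H_smul_left, hdu, hbu, hu]; ring
  have hwb : H w b = 0 := by rw [hw, H_sub_left, H_sub_left, H_smul_left, hb, hub, hα]; ring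
  have huw : H u w = 0 := by rw [← H_conj hF, hwu, zero_pow hq0]
  have hbw : H b w = 0 := by rw [← H_conj hF, hwb, zero_pow hq0]
  have hde : d = b + w + α • u := by rw [hw]; abel
  have hcond : α + α ^ q + H w w = 0 := by
    rw [hde] at hd
    simp only [H_add_left, H_add_right hF, H_smul_left, H_smul_right, hb, hu, hub, hbu, hwu, hwb, huw, hbw] at hd
    linear_combination hd
  obtain ⟨s, hs⟩ := exists_elt hF hu hwu hcond
  refine ⟨s, by rw [hs, E_mulVec, hu, huw]; simp, ?_⟩
  rw [hs, E_mulVec, hbu, hbw, hde]; simp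

/-- Points in one orbit of `N`. -/
def R (N : Subgroup (Cfsg.SU n F q)) (x y : Fin n → F) : Prop := ∃ g ∈ N, ∃ l : F, l ≠ 0 ∧ g.1.1 *ᵥ x = l • y

omit [Fintype F] in
theorem R_trans {N : Subgroup (Cfsg.SU n F q)} {x y z : Fin n → F} (h1 : R N x y) (h2 : R N y z) : R N x z := by
  obtain ⟨g, hg, l, hl, hgx⟩ := h1
  obtain ⟨k, hk, m, hm, hky⟩ := h2
  exact ⟨k * g, mul_mem hk hg, l * m, mul_ne_zero hl hm, by rw [su_mulVec, hgx, Matrix.mulVec_smul, hky, smul_smul]⟩

omit [Fintype F] in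
theorem R_symm {N : Subgroup (Cfsg.SU n F q)} {x y : Fin n → F} (h1 : R N x y) : R N y x := by
  obtain ⟨g, hg, l, hl, hgx⟩ := h1
  refine ⟨g⁻¹, inv_mem hg, l⁻¹, inv_ne_zero hl, ?_⟩
  have : (g⁻¹).1.1 *ᵥ (l • y) = x := by rw [← hgx, su_inv_cancel]
  rw [Matrix.mulVec_smul] at this
  rw [← this, smul_smul, inv_mul_cancel₀ hl, one_smul]

omit [Fintype F] in
theorem R_conj {N : Subgroup (Cfsg.SU n F q)} [hN : N.Normal] {x y : Fin n → F} (h1 : R N x y) (s : Cfsg.SU n F q) :
    R N (s.1.1 *ᵥ x) (s.1.1 *ᵥ y) := by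
  obtain ⟨g, hg, l, hl, hgx⟩ := h1
  exact ⟨s * g * s⁻¹, hN.conj_mem g hg s, l, hl, by
    rw [su_mulVec, su_mulVec, su_inv_cancel, hgx, Matrix.mulVec_smul]⟩

omit [Fintype F] in
theorem R_smul_right {N : Subgroup (Cfsg.SU n F q)} {x y : Fin n → F} (h1 : R N x y) {m : F} (hm : m ≠ 0) : R N x (m • y) := by
  obtain ⟨g, hg, l, hl, hgx⟩ := h1
  exact ⟨g, hg, l * m⁻¹, mul_ne_zero hl (inv_ne_zero hm), by
    rw [smul_smul, mul_assoc, inv_mul_cancel₀ hm, mul_one, hgx]⟩

omit [Fintype F] in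
theorem R_smul_left {N : Subgroup (Cfsg.SU n F q)} {x y : Fin n → F} (h1 : R N x y) {m : F} (hm : m ≠ 0) : R N (m • x) y := by
  obtain ⟨g, hg, l, hl, hgx⟩ := h1
  exact ⟨g, hg, m * l, mul_ne_zero hm hl, by rw [Matrix.mulVec_smul, hgx, smul_smul]⟩

/-- One orbit. -/
theorem one_orbit (hF : Fintype.card F = q ^ 2) (hn : 3 ≤ n) (N : Subgroup (Cfsg.SU n F q)) [hN : N.Normal]
    {a b : Fin n → F} (ha : a ≠ 0) (hia : H a a = 0) (hb : b ≠ 0) (hib : H b b = 0) (hab : H b a ≠ 0) (hR : R N a b)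
    {c d : Fin n → F} (hc : c ≠ 0) (hic : H c c = 0) (hd : d ≠ 0) (hid : H d d = 0) : R N c d := by
  have hq0 := q_ne_zero hF
  have near : ∀ {c d : Fin n → F}, c ≠ 0 → H c c = 0 → d ≠ 0 → H d d = 0 → H d c ≠ 0 → R N c d := by
    intro c d hc hic hd hid hdc
    obtain ⟨g, hg⟩ := Isotropic.transitive hF hn ha hc hia hic
    set b' := g.1.1 *ᵥ b with hb'
    have hRc : R N c b' := by rw [← hg]; exact R_conj hR g
    have hb'c : H b' c ≠ 0 := by rw [hb', ← hg, SU_H]; exact hab
    obtain ⟨s, hsc, hsb⟩ := stab_move hF hic (b := (H b' c)⁻¹ • b') (d := (H d c)⁻¹ • d)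
      (by rw [H_smul_left, H_smul_right, hb', SU_H, hib, mul_zero, mul_zero])
      (by rw [H_smul_left, H_smul_right, hid, mul_zero, mul_zero])
      (by rw [H_smul_left, inv_mul_cancel₀ hb'c]) (by rw [H_smul_left, inv_mul_cancel₀ hdc])
    have h1 := R_conj (R_smul_right hRc (inv_ne_zero hb'c)) s
    rw [hsc, hsb] at h1
    have h2 := R_smul_right h1 hdc
    rwa [smul_smul, mul_inv_cancel₀ hdc, one_smul] at h2
  by_cases hdc : H d c = 0
  · obtain ⟨c', -, -, -, hc'0, hc'c, -, -, -⟩ := exists_frame hF (j := 0) (by omega) (fun i hi => absurd hi (Nat.not_lt_zero _)) hc hic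
    have hc'ne : c' ≠ 0 := by rintro rfl; simp [Cfsg.hermForm] at hc'c
    have hcd : H c d = 0 := by rw [← H_conj hF, hdc, zero_pow hq0]
    have hcc' : H c c' = 1 := by rw [← H_conj hF, hc'c, one_pow]
    by_cases h1 : H d c' = 0
    · obtain ⟨d', -, -, -, hd'0, hd'd, -, -, -⟩ := exists_frame hF (j := 0) (by omega) (fun i hi => absurd hi (Nat.not_lt_zero _)) hd hid
      by_cases h2 : H d' c = 0
      · have hdd' : H d d' = 1 := by rw [← H_conj hF, hd'd, one_pow]
        set k := H c' d' with hk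
        obtain ⟨e, he, hek⟩ : ∃ e : F, e ≠ 0 ∧ e ^ q * k + (e ^ q * k) ^ q = 0 := by
          by_cases hk0 : k = 0
          · exact ⟨1, one_ne_zero, by simp [hk0, hq0]⟩
          · obtain ⟨z, hz, hzq⟩ := exists_anti hF
            refine ⟨(z / k) ^ q, pow_ne_zero _ (div_ne_zero hz hk0), ?_⟩
            rw [pow_q_q hF, div_mul_cancel₀ _ hk0, hzq, add_neg_cancel]
        set z := c' + e • d' with hz
        have hzc : H z c ≠ 0 := by rw [hz, H_add_left, H_smul_left, hc'c, h2, mul_zero, add_zero]; exact one_ne_zero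
        have hzd : H d z ≠ 0 := by
          rw [hz, H_add_right hF, H_smul_right, h1, hdd', zero_add, mul_one]; exact pow_ne_zero _ he
        have hiz : H z z = 0 := by
          simp only [hz, H_add_left, H_add_right hF, H_smul_left, H_smul_right, hc'0, hd'0]
          rw [mul_pow, pow_q_q hF, hk, H_conj hF] at hek
          linear_combination hek
        have hz0 : z ≠ 0 := fun h => hzc (by simp [h, Cfsg.hermForm])
        exact R_trans (near hc hic hz0 hiz hzc) (near hz0 hiz hd hid hzd)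
      · have hd'ne : d' ≠ 0 := by rintro rfl; simp [Cfsg.hermForm] at hd'd
        refine R_trans (near hc hic hd'ne hd'0 h2) (near hd'ne hd'0 hd hid ?_)
        rw [← H_conj hF, hd'd, one_pow]; exact one_ne_zero
    · exact R_trans (near hc hic hc'ne hc'0 (by rw [hc'c]; exact one_ne_zero)) (near hc'ne hc'0 hd hid h1)
  · exact near hc hic hd hid hdc

/-- Iwasawa's argument. -/
theorem normal_cases (hF : Fintype.card F = q ^ 2) (hn : 4 ≤ n ∨ (n = 3 ∧ 3 ≤ q)) (N : Subgroup (Cfsg.SU n F q)) [hN : N.Normal] :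
    N ≤ Subgroup.center (Cfsg.SU n F q) ∨ N = ⊤ := by
  classical
  have hn3 : 3 ≤ n := by omega
  have hq0 := q_ne_zero hF
  have hgen := closure_eq_top hF hn
  by_cases hfix : ∀ g ∈ N, ∀ z : Fin n → F, H z z = 0 → ∃ l : F, g.1.1 *ᵥ z = l • z
  · refine or_iff_not_imp_right.2 fun hne g hg => ?_
    rw [Subgroup.mem_center_iff]
    have hle : TG n F q ≤ Subgroup.centralizer {g} := by
      refine (Subgroup.closure_le _).2 ?_
      rintro t ⟨v, c, hv, ht⟩
      rw [SetLike.mem_coe, Subgroup.mem_centralizer_singleton_iff]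
      have htx : ∀ x, t.1.1 *ᵥ x = x + (c * H x v) • v := fun x => by rw [ht, umat_mulVec]
      obtain ⟨l, hl⟩ := hfix g hg v hv
      have hconj : ∀ x, (g * t * g⁻¹).1.1 *ᵥ x = x + (l * l ^ q * c * H x v) • v := fun x => by
        obtain ⟨y, rfl⟩ : ∃ y, g.1.1 *ᵥ y = x := ⟨(g⁻¹).1.1 *ᵥ x, su_cancel g x⟩
        rw [su_mulVec, su_mulVec, su_inv_cancel, htx, Matrix.mulVec_add, Matrix.mulVec_smul, hl, ← SU_H g y v, hl,
          H_smul_right, smul_smul]
        congr 2
        ring
      by_cases hv0 : v = 0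
      · have : t = 1 := Subtype.ext (Subtype.ext (Matrix.ext_iff_mulVec.2 fun x => by
          rw [htx, hv0, smul_zero, add_zero]; simp))
        rw [this, one_mul, mul_one]
      by_cases hlc : l * l ^ q * c = c
      · have heq : g * t * g⁻¹ = t := Subtype.ext (Subtype.ext (Matrix.ext_iff_mulVec.2 fun x => by rw [hconj, htx, hlc]))
        exact (mul_inv_eq_iff_eq_mul.1 heq).symm
      · refine absurd (top_of_tv hF hn N (g := g * t * g⁻¹ * t⁻¹) ?_ ?_) hne
        · rw [show g * t * g⁻¹ * t⁻¹ = g * (t * g⁻¹ * t⁻¹) by group]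
          exact mul_mem hg (hN.conj_mem _ (inv_mem hg) t)
        · refine tv_isTransvection hF hv0 hv (c := l * l ^ q * c - c) (fun x => ?_) (sub_ne_zero.2 hlc)
          obtain ⟨y, rfl⟩ : ∃ y, t.1.1 *ᵥ y = x := ⟨(t⁻¹).1.1 *ᵥ x, su_cancel t x⟩
          rw [su_mulVec, su_inv_cancel, hconj, htx, H_add_left, H_smul_left, hv]
          module
    intro k
    have hk : k ∈ Subgroup.centralizer {g} := hle (hgen ▸ Subgroup.mem_top k)
    exact Subgroup.mem_centralizer_singleton_iff.1 hk
  · refine Or.inr ?_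
    simp only [not_forall, not_exists] at hfix
    obtain ⟨g, hg, z, hz, hmove⟩ := hfix
    have hz0 : z ≠ 0 := fun h => hmove 0 (by rw [h, Matrix.mulVec_zero, zero_smul])
    set x := g.1.1 *ᵥ z with hx
    have hix : H x x = 0 := by rw [hx, SU_H, hz]
    have hx0 : x ≠ 0 := fun h => hz0 (by rw [← su_inv_cancel g z, ← hx, h, Matrix.mulVec_zero])
    have hRzx : R N z x := ⟨g, hg, 1, one_ne_zero, by rw [one_smul]⟩
    obtain ⟨a, b, ha, hia, hb, hib, hab, hR⟩ : ∃ a b : Fin n → F, a ≠ 0 ∧ H a a = 0 ∧ b ≠ 0 ∧ H b b = 0 ∧ H b a ≠ 0 ∧ R N a b := by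
      by_cases h : H x z = 0
      · -- two images of `z` which are not orthogonal
        obtain ⟨z', -, -, -, hz'0, hz'z, -, -, -⟩ := exists_frame hF (j := 0) (by omega) (fun i hi => absurd hi (Nat.not_lt_zero _)) hz0 hz
        obtain ⟨y, hyz, hxy⟩ : ∃ y, H y z = 0 ∧ H x y ≠ 0 := by
          by_contra hc
          simp only [not_exists, not_and, not_not] at hc
          refine hmove (H x z') ?_
          refine sub_eq_zero.1 (vec_eq_zero hF fun w => ?_)
          have hy := hc (w - H w z • z') (by rw [H_sub_left, H_smul_left, hz'z, mul_one, sub_self])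
          rw [H_sub_right hF, H_smul_right] at hy
          rw [H_sub_right hF, H_smul_right, ← H_conj hF x w]
          have := congrArg (· ^ q) hy
          simp only [sub_pow_q hF, mul_pow, pow_q_q hF, zero_pow hq0] at this
          linear_combination this
        obtain ⟨t0, ht0⟩ := exists_trace_one hF
        set r := (-(H y y) * t0) / H x y with hr
        set w := y + r • x with hw
        have hzx : H z x = 0 := by rw [← H_conj hF, h, zero_pow hq0]
        have hiw : H w w = 0 := by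
          have e1 : r * H x y + (r * H x y) ^ q = -H y y := by
            rw [hr, div_mul_cancel₀ _ hxy, mul_pow, neg_pow_q hF, H_self_fixed hF]
            linear_combination (-(H y y)) * ht0
          simp only [hw, H_add_left, H_add_right hF, H_smul_left, H_smul_right, hix]
          rw [mul_pow, H_conj hF] at e1
          linear_combination e1
        have hwz : H w z = 0 := by rw [hw, H_add_left, H_smul_left, hyz, h, mul_zero, add_zero]
        have hzw : H z w = 0 := by rw [← H_conj hF, hwz, zero_pow hq0]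
        have hxw : H x w ≠ 0 := by rw [hw, H_add_right hF, H_smul_right, hix, mul_zero, add_zero]; exact hxy
        obtain ⟨d, hd, hdq⟩ := exists_anti hF
        obtain ⟨t, -, htx⟩ := exists_tv hF hiw hdq
        have htz : t.1.1 *ᵥ z = z := by rw [htx, hzw, mul_zero, zero_smul, add_zero]
        have h1 := R_conj hRzx t
        rw [htz] at h1
        refine ⟨x, t.1.1 *ᵥ x, hx0, hix, fun h0 => hx0 (by rw [← su_inv_cancel t x, h0, Matrix.mulVec_zero]),
          by rw [SU_H, hix], ?_, R_trans (R_symm hRzx) h1⟩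
        rw [htx, H_add_left, H_smul_left, hix, ← H_conj hF x w, zero_add]
        exact mul_ne_zero (mul_ne_zero hd hxw) (pow_ne_zero _ hxw)
      · exact ⟨z, x, hz0, hz, hx0, hix, h, hRzx⟩
    have hall : ∀ v : Fin n → F, v ≠ 0 → H v v = 0 → R N a v := fun v hv hiv =>
      one_orbit hF hn3 N ha hia hb hib hab hR ha hia hv hiv
    -- modulo `N` all transvections lie in one abelian root group
    let π := QuotientGroup.mk' N
    have himg : ∀ t ∈ tvSet n F q, ∃ c : F, ∃ s : Cfsg.SU n F q, (∀ x, s.1.1 *ᵥ x = x + (c * H x a) • a) ∧ π t = π s := by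
      rintro t ⟨v, c, hv, ht⟩
      have htx : ∀ x, t.1.1 *ᵥ x = x + (c * H x v) • v := fun x => by rw [ht, umat_mulVec]
      by_cases hv0 : v = 0
      · refine ⟨0, 1, fun x => by simp, ?_⟩
        congr 1
        exact Subtype.ext (Subtype.ext (Matrix.ext_iff_mulVec.2 fun x => by rw [htx, hv0, smul_zero, add_zero]; simp))
      obtain ⟨k, hk, l, hl, hka⟩ := hall v hv0 hv
      refine ⟨c / (l * l ^ q), k⁻¹ * t * k, fun x => ?_, ?_⟩
      · rw [su_mulVec, su_mulVec, htx, Matrix.mulVec_add, Matrix.mulVec_smul, su_inv_cancel]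
        have hv' : v = l⁻¹ • (k.1.1 *ᵥ a) := by rw [hka, smul_smul, inv_mul_cancel₀ hl, one_smul]
        rw [hv', H_smul_right, SU_H, Matrix.mulVec_smul, su_inv_cancel, smul_smul]
        congr 2
        rw [inv_pow]
        field_simp
      · rw [map_mul, map_mul, map_inv, show π k = 1 from (QuotientGroup.eq_one_iff k).2 hk]
        group
    have hcomm : ∀ t ∈ tvSet n F q, ∀ t' ∈ tvSet n F q, π t * π t' = π t' * π t := by
      intro t ht t' ht'
      obtain ⟨c, s, hs, e⟩ := himg t ht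
      obtain ⟨c', s', hs', e'⟩ := himg t' ht'
      rw [e, e', ← map_mul, ← map_mul]
      congr 1
      refine Subtype.ext (Subtype.ext (Matrix.ext_iff_mulVec.2 fun x => ?_))
      simp only [su_mulVec, hs, hs', H_add_left, H_smul_left, hia]
      module
    have hab' : ∀ g h : Cfsg.SU n F q, π g * π h = π h * π g := by
      have h1 : ∀ t ∈ tvSet n F q, ∀ h, π h * π t = π t * π h := fun t ht h => by
        have hle : TG n F q ≤ (Subgroup.centralizer {π t}).comap π :=
          (Subgroup.closure_le _).2 fun t' ht' => Subgroup.mem_centralizer_singleton_iff.2 (hcomm t' ht' t ht)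
        exact Subgroup.mem_centralizer_singleton_iff.1 (hle (hgen ▸ Subgroup.mem_top h))
      intro g h
      have hle : TG n F q ≤ (Subgroup.centralizer {π h}).comap π :=
        (Subgroup.closure_le _).2 fun t ht => Subgroup.mem_centralizer_singleton_iff.2 (h1 t ht h).symm
      exact Subgroup.mem_centralizer_singleton_iff.1 (hle (hgen ▸ Subgroup.mem_top g))
    rw [eq_top_iff, ← hgen]
    refine (Subgroup.closure_le _).2 ?_
    rintro t ⟨v, c, hv, ht⟩
    obtain ⟨g₁, g₂, rfl⟩ := Cfsg.Agent.S0781.result hF n hn t v c hv ht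
    rw [SetLike.mem_coe, ← QuotientGroup.eq_one_iff]
    show π ⁅g₁, g₂⁆ = 1
    rw [map_commutatorElement, commutatorElement_eq_one_iff_mul_comm]
    exact hab' g₁ g₂

theorem center_ne_top (hF : Fintype.card F = q ^ 2) (hn : 4 ≤ n ∨ (n = 3 ∧ 3 ≤ q)) :
    Subgroup.center (Cfsg.SU n F q) ≠ ⊤ := by
  intro htop
  obtain ⟨ζ, hζ⟩ := exists_norm hF (c := (-1 : F)) (by simp) (by rw [neg_pow_q hF, one_pow])
  let i0 : Fin n := ⟨0, by omega⟩
  let i1 : Fin n := ⟨1, by omega⟩
  have h01 : i0 ≠ i1 := by simp [i0, i1, Fin.ext_iff]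
  have hu := u0_iso (n := n) hF h01 hζ
  obtain ⟨d, hd, hdq⟩ := exists_anti hF
  obtain ⟨t, -, htx⟩ := exists_tv hF hu hdq
  obtain ⟨g₁, g₂, h⟩ := Cfsg.Agent.S0781.result hF n hn t _ d hu (Matrix.ext_iff_mulVec.2 fun x => by rw [htx, umat_mulVec])
  refine tv_ne_one hF (u0_ne h01 ζ) hd htx (h ▸ ?_)
  rw [commutatorElement_eq_one_iff_mul_comm]
  exact Subgroup.mem_center_iff.1 (htop ▸ Subgroup.mem_top g₂) g₁

theorem isSimpleGroup_PSU (hF : Fintype.card F = q ^ 2) (hn : 4 ≤ n ∨ (n = 3 ∧ 3 ≤ q)) : IsSimpleGroup (Cfsg.PSU n F q) := by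
  haveI : Nontrivial (Cfsg.PSU n F q) := QuotientGroup.nontrivial_iff.2 (center_ne_top hF hn)
  refine ⟨fun N hN => ?_⟩
  rcases normal_cases hF hn (N.comap (QuotientGroup.mk' _)) with h1 | h1
  · refine Or.inl ?_
    rw [← Subgroup.map_comap_eq_self_of_surjective (QuotientGroup.mk'_surjective _) N, Subgroup.map_eq_bot_iff,
      QuotientGroup.ker_mk']
    exact h1
  · refine Or.inr ?_
    rw [← Subgroup.map_comap_eq_self_of_surjective (QuotientGroup.mk'_surjective _) N, h1,
      Subgroup.map_top_of_surjective _ (QuotientGroup.mk'_surjective _)]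

end CfsgLib.Unitary.Simple
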