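import Mathlib
import Cfsg.Agent.Lib.Unitary.Conj
import Cfsg.Agent.Lib.Unipotent.NilpotentClasses

/-! Every unipotent class of `GL_n(q²)` meets `GU_n(q)`. -/

set_option autoImplicit false

namespace CfsgLib.Unitary.Unipotent

open CfsgLib.Unitary.Conj CfsgLib.Unipotent.NilpotentClasses

variable {K : Type*} [Field K] {n : ℕ}

local notation "M" => Matrix (Fin n) (Fin n) K

theorem partition_eq {μ ν : Nat.Partition n}
    (hr : ∀ j, (μ.parts.map (fun d => d - j)).sum = (ν.parts.map (fun d => d - j)).sum) : μ = ν := by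
  apply Nat.Partition.ext
  ext v
  rcases Nat.eq_zero_or_pos v with rfl | hv
  · rw [Multiset.count_eq_zero.2 (fun h => lt_irrefl 0 (μ.parts_pos h)),
      Multiset.count_eq_zero.2 (fun h => lt_irrefl 0 (ν.parts_pos h))]
  · have h1 := count_eq μ.parts v hv
    have h2 := count_eq ν.parts v hv
    rw [hr (v - 1), hr (v + 1), hr v] at h1
    omega

theorem adj_std (κ : K →+* K) (μ : Nat.Partition n) : adj κ (std K μ) = (std K μ).transpose := by
  ext i j
  simp only [adj, Matrix.transpose_apply, Matrix.map_apply, std, Matrix.coe_reindexAlgEquiv, Matrix.reindex_apply,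
    Matrix.submatrix_apply, bd, Matrix.of_apply]
  split_ifs <;> simp

theorem exists_form (κ : K →+* K) (g : GL (Fin n) K) (hg : IsNilpotent ((g : M) - 1)) :
    ∃ X : GL (Fin n) K, adj κ (g : M) * (X : M) * (g : M) = (X : M) := by
  classical
  let ga : GL (Fin n) K := (isUnit_adj κ g.isUnit).unit
  have hga : (ga : M) = adj κ (g : M) := IsUnit.unit_spec _
  obtain ⟨μ, P, hP⟩ := exists_std _ hg
  set N := (g : M) - 1 with hN
  set N' := ((ga⁻¹ : GL (Fin n) K) : M) - 1 with hN'
  have hcomm : Commute (-((ga⁻¹ : GL (Fin n) K) : M)) (adj κ N) := by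
    rw [hN, adj_sub, adj_one, ← hga]
    refine Commute.neg_left ((Commute.sub_right ?_ (Commute.one_right _)))
    exact (Commute.units_inv_left (Commute.refl (ga : M)))
  have e : N' = -((ga⁻¹ : GL (Fin n) K) : M) * adj κ N := by
    rw [hN, adj_sub, adj_one, ← hga, hN', neg_mul, mul_sub, mul_one, Units.inv_mul, neg_sub]
  have hN'nil : IsNilpotent N' := by
    rw [e]
    refine hcomm.isNilpotent_mul_left ?_
    obtain ⟨k, hk⟩ := hg
    exact ⟨k, by rw [← adj_pow, hk, adj_zero]⟩
  obtain ⟨ν, Q, hQ⟩ := exists_std N' hN'nil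
  let Pa : GL (Fin n) K := (isUnit_adj κ P.isUnit).unit
  have hPa : (Pa : M) = adj κ (P : M) := IsUnit.unit_spec _
  have hN2 : (Pa : M) * adj κ N = (std K μ).transpose * (Pa : M) := by
    rw [hPa, ← adj_mul, hP, adj_mul, adj_std]
  have hμν : ν = μ := by
    refine partition_eq fun j => ?_
    rw [← rank_std_pow (K := K), ← rank_std_pow (K := K), ← rank_pow_eq_of_similar N' (std K ν) Q hQ j, e, hcomm.mul_pow]
    rw [Matrix.rank_mul_eq_right_of_isUnit_det _ _ (by
      rw [← Matrix.isUnit_iff_isUnit_det]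
      exact ((ga⁻¹).isUnit.neg).pow j)]
    have h' : ∀ j : ℕ, (Pa : M) * adj κ N ^ j = (std K μ).transpose ^ j * (Pa : M) := by
      intro j
      induction j with
      | zero => simp
      | succ j ih => rw [pow_succ, ← mul_assoc, ih, mul_assoc, hN2, ← mul_assoc, ← pow_succ]
    have hPd := (Matrix.isUnit_iff_isUnit_det _).1 Pa.isUnit
    rw [← Matrix.rank_mul_eq_right_of_isUnit_det _ (adj κ N ^ j) hPd, h' j, Matrix.rank_mul_eq_left_of_isUnit_det _ _ hPd,
      ← Matrix.transpose_pow, Matrix.rank_transpose]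
  subst hμν
  refine ⟨Q * P⁻¹, ?_⟩
  have hgP : (g : M) * (P : M) = (P : M) * (1 + std K ν) := by
    rw [mul_add, mul_one, ← hP, hN, sub_mul, one_mul]; abel
  have hgQ : ((ga⁻¹ : GL (Fin n) K) : M) * (Q : M) = (Q : M) * (1 + std K ν) := by
    rw [mul_add, mul_one, ← hQ, hN', sub_mul, one_mul]; abel
  have h1 : (ga⁻¹ : GL (Fin n) K) * (Q * P⁻¹) = (Q * P⁻¹) * g := by
    refine Units.ext ?_
    simp only [Units.val_mul]
    calc ((ga⁻¹ : GL (Fin n) K) : M) * ((Q : M) * ((P⁻¹ : GL (Fin n) K) : M))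
        = (Q : M) * (((P⁻¹ : GL (Fin n) K) : M) * ((P : M) * (1 + std K ν))) * ((P⁻¹ : GL (Fin n) K) : M) := by
          rw [← mul_assoc, hgQ, ← mul_assoc (((P⁻¹ : GL (Fin n) K) : M)), Units.inv_mul, one_mul]
      _ = (Q : M) * ((P⁻¹ : GL (Fin n) K) : M) * (g : M) := by
          rw [← hgP]; simp only [mul_assoc, Units.mul_inv, mul_one]
  have h2 : ga * (Q * P⁻¹) * g = Q * P⁻¹ := by
    rw [mul_assoc, ← h1, mul_inv_cancel_left]
  rw [← hga, ← Units.val_mul, ← Units.val_mul, h2]

end CfsgLib.Unitary.Unipotent
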